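import Mathlib
import Cfsg.Prelude.Def_OddOrderLocal
import Cfsg.Agent.Lib.Helper27.BG.SigmaBasic
import Cfsg.Agent.Lib.Helper35.BG.Basic
import Cfsg.Agent.Lib.Helper35.BG.Hall
import Cfsg.Agent.Lib.Helper67.BG.Basics
import Cfsg.Agent.Lib.Helper67.BG.HallUtil
import Cfsg.Agent.Lib.Helper24.PRank

/-!
Conjugation-equivariance of the Bender–Glauberman vocabulary (`σ`-core, `κ`, relative Hall
subgroups, centralizers) and the decomposition of an element into its `π`- and `π'`-parts
(helper85).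
-/

set_option autoImplicit false

namespace Cfsg.Agent.Lib.Helper85.BG

open Cfsg Cfsg.Agent.Lib.Helper35.BG Cfsg.Agent.Lib.Helper67.BG

variable {G : Type*} [Group G]

theorem orderOf_conj (g x : G) : orderOf (g * x * g⁻¹) = orderOf x := by
  have := orderOf_injective (MulAut.conj g).toMonoidHom (MulAut.conj g).injective x
  simpa [MulAut.conj_apply] using this

theorem conj_ne_one {g x : G} (hx : x ≠ 1) : g * x * g⁻¹ ≠ 1 := by
  intro h
  apply hx
  have : x = g⁻¹ * (g * x * g⁻¹) * g := by group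
  rw [this, h]; group

theorem conj_commute {a b : G} (h : Commute a b) (g : G) :
    Commute (g * a * g⁻¹) (g * b * g⁻¹) := by
  unfold Commute SemiconjBy
  calc g * a * g⁻¹ * (g * b * g⁻¹) = g * (a * b) * g⁻¹ := by group
    _ = g * (b * a) * g⁻¹ := by rw [h.eq]
    _ = g * b * g⁻¹ * (g * a * g⁻¹) := by group

/-- The centralizer of a conjugate element. -/
theorem conj_mem_centralizer_conj {x c : G} (hc : c ∈ Subgroup.centralizer ({x} : Set G)) (g : G) :
    g * c * g⁻¹ ∈ Subgroup.centralizer ({g * x * g⁻¹} : Set G) := by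
  rw [Subgroup.mem_centralizer_singleton_iff] at hc ⊢
  calc g * c * g⁻¹ * (g * x * g⁻¹) = g * (c * x) * g⁻¹ := by group
    _ = g * (x * c) * g⁻¹ := by rw [hc]
    _ = g * x * g⁻¹ * (g * c * g⁻¹) := by group

theorem centralizer_conj_le {x : G} {L : Subgroup G} (g : G)
    (h : Subgroup.centralizer ({x} : Set G) ≤ L) :
    Subgroup.centralizer ({g * x * g⁻¹} : Set G) ≤ L.map (MulAut.conj g).toMonoidHom := by
  intro c hc
  rw [mem_map_conj_iff]
  apply h
  have := conj_mem_centralizer_conj hc g⁻¹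
  have e : g⁻¹ * (g * x * g⁻¹) * g⁻¹⁻¹ = x := by group
  rw [e] at this
  simpa using this

theorem centralizer_conj_le' {x : G} {L : Subgroup G} (g : G)
    (h : Subgroup.centralizer ({g * x * g⁻¹} : Set G) ≤ L.map (MulAut.conj g).toMonoidHom) :
    Subgroup.centralizer ({x} : Set G) ≤ L := by
  have := centralizer_conj_le g⁻¹ h
  rw [map_conj_mul, inv_mul_cancel, map_conj_one] at this
  have e : g⁻¹ * (g * x * g⁻¹) * g⁻¹⁻¹ = x := by group
  rwa [e] at this

theorem map_conj_inv_map_conj (H : Subgroup G) (g : G) :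
    (H.map (MulAut.conj g).toMonoidHom).map (MulAut.conj g⁻¹).toMonoidHom = H := by
  rw [map_conj_mul, inv_mul_cancel, map_conj_one]

theorem map_conj_map_conj_inv (H : Subgroup G) (g : G) :
    (H.map (MulAut.conj g⁻¹).toMonoidHom).map (MulAut.conj g).toMonoidHom = H := by
  rw [map_conj_mul, mul_inv_cancel, map_conj_one]

theorem map_conj_eq_self_of_mem {H : Subgroup G} {m : G} (hm : m ∈ H) :
    H.map (MulAut.conj m).toMonoidHom = H := by
  ext x
  rw [mem_map_conj_iff]
  constructor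
  · intro h
    have e : x = m * (m⁻¹ * x * m) * m⁻¹ := by group
    rw [e]
    exact H.mul_mem (H.mul_mem hm h) (H.inv_mem hm)
  · intro h
    exact H.mul_mem (H.mul_mem (H.inv_mem hm) h) hm

theorem isCoatom_map_conj {M : Subgroup G} (hM : IsCoatom M) (g : G) :
    IsCoatom (M.map (MulAut.conj g).toMonoidHom) := by
  have := (OrderIso.isCoatom_iff (MulEquiv.mapSubgroup (MulAut.conj g)) M).2 hM
  simpa using this

/-! ### the `σ`-core -/

theorem sigmaCore_map_conj_le [Finite G] (M : Subgroup G) (g : G) :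
    (sigmaCore M).map (MulAut.conj g).toMonoidHom ≤
      sigmaCore (M.map (MulAut.conj g).toMonoidHom) := by
  set M' := M.map (MulAut.conj g).toMonoidHom with hM'
  set N := (sigmaCore M).map (MulAut.conj g).toMonoidHom with hN
  have hNM' : N ≤ M' := Subgroup.map_mono (sigmaCore_le M)
  have hnorm : M' ≤ Subgroup.normalizer (N : Set G) := by
    rw [hN, normalizer_map_conj]; exact Subgroup.map_mono (sigmaCore_normalizer M)
  have hNn : (N.subgroupOf M').Normal :=
    (Subgroup.normal_subgroupOf_iff_le_normalizer hNM').mpr hnorm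
  have hπ : ∀ p : ℕ, p.Prime → p ∣ Nat.card (N.subgroupOf M') → p ∈ sigma M' := by
    intro p hp hdvd
    rw [Nat.card_congr (Subgroup.subgroupOfEquivOfLe hNM').toEquiv, hN, card_map_conj] at hdvd
    rw [hM', Cfsg.Agent.Lib.Helper27.BG.sigma_map_conj]
    exact sigmaCore_isPi M p hp hdvd
  have h1 : N.subgroupOf M' ≤ piCore (sigma M') M' := le_sSup ⟨hNn, hπ⟩
  intro x hx
  exact ⟨⟨x, hNM' hx⟩, h1 (Subgroup.mem_subgroupOf.mpr hx), rfl⟩

/-- The `σ`-core is conjugation-equivariant. -/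
theorem sigmaCore_map_conj [Finite G] (M : Subgroup G) (g : G) :
    sigmaCore (M.map (MulAut.conj g).toMonoidHom) =
      (sigmaCore M).map (MulAut.conj g).toMonoidHom := by
  apply le_antisymm
  · have h := sigmaCore_map_conj_le (M.map (MulAut.conj g).toMonoidHom) g⁻¹
    rw [map_conj_inv_map_conj] at h
    have h2 := Subgroup.map_mono (f := (MulAut.conj g).toMonoidHom) h
    rwa [map_conj_map_conj_inv] at h2
  · exact sigmaCore_map_conj_le M g

theorem conj_mem_sigmaCore_map [Finite G] {M : Subgroup G} {x : G} (hx : x ∈ sigmaCore M) (g : G) :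
    g * x * g⁻¹ ∈ sigmaCore (M.map (MulAut.conj g).toMonoidHom) := by
  rw [sigmaCore_map_conj]
  exact conj_mem_map_conj g hx

/-! ### relative Hall subgroups -/

theorem isPiHallOf_map_conj [Finite G] {π : Set ℕ} {H M : Subgroup G} (h : IsPiHallOf π H M)
    (g : G) :
    IsPiHallOf π (H.map (MulAut.conj g).toMonoidHom) (M.map (MulAut.conj g).toMonoidHom) := by
  refine ⟨Subgroup.map_mono h.1, ?_, ?_⟩
  · intro p hp hdvd
    rw [card_map_conj] at hdvd
    exact h.2.1 p hp hdvd
  · intro p hp hpπ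
    rw [Subgroup.relIndex_map_map_of_injective _ _ (MulAut.conj g).injective]
    exact h.2.2 p hp hpπ

/-! ### `κ` -/

theorem pRankLE_one_of_mem_kappa [Finite G] {M : Subgroup G} {p : ℕ} (hκ : p ∈ kappa M) :
    PRankLE p 1 M := by
  obtain ⟨hpp, -, -, hcyc⟩ := hκ
  intro A hAc hAp
  have : Fact p.Prime := ⟨hpp⟩
  have hA : IsPGroup p A := by
    intro ⟨a, ha⟩
    refine ⟨1, ?_⟩
    apply Subtype.ext
    rw [pow_one]
    exact hAp a ha
  obtain ⟨P, hP⟩ := hA.exists_le_sylow
  have hPc : IsCyclic (P : Subgroup M) := (hcyc P).1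
  have hAcyc : IsCyclic A := by
    have e : A ≃* (A.subgroupOf (P : Subgroup M)) := (Subgroup.subgroupOfEquivOfLe hP).symm
    have : IsCyclic (A.subgroupOf (P : Subgroup M)) := inferInstance
    exact isCyclic_of_surjective e.symm.toMonoidHom e.symm.surjective
  have h1 : Monoid.exponent A ∣ p :=
    Monoid.exponent_dvd_of_forall_pow_eq_one (fun a : A => Subtype.ext (hAp a a.2))
  rw [IsCyclic.exponent_eq_card] at h1
  simpa using Nat.le_of_dvd hpp.pos h1

theorem pRankLE_map_conj [Finite G] {p k : ℕ} {M : Subgroup G} (h : PRankLE p k M) (g : G) :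
    PRankLE p k (M.map (MulAut.conj g).toMonoidHom) := by
  rw [Cfsg.Agent.Lib.Helper24.pRankLE_subgroup_iff] at h ⊢
  intro A hAM hcomm hexp
  have h1 := h (A.map (MulAut.conj g⁻¹).toMonoidHom) ?_ ?_ ?_
  · rwa [card_map_conj] at h1
  · have := Subgroup.map_mono (f := (MulAut.conj g⁻¹).toMonoidHom) hAM
    rwa [map_conj_inv_map_conj] at this
  · rintro _ ⟨a, ha, rfl⟩ _ ⟨b, hb, rfl⟩
    have := hcomm a ha b hb
    simp only [MulEquiv.coe_toMonoidHom, MulAut.conj_apply]
    exact (conj_commute this g⁻¹).eq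
  · rintro _ ⟨a, ha, rfl⟩
    simp only [MulEquiv.coe_toMonoidHom]
    rw [← map_pow, hexp a ha, map_one]

theorem kappa_subset_kappa_map_conj [Finite G] (hodd : Odd (Nat.card G)) (M : Subgroup G) (g : G) :
    kappa M ⊆ kappa (M.map (MulAut.conj g).toMonoidHom) := by
  intro p hκ
  have hr1 := pRankLE_one_of_mem_kappa hκ
  obtain ⟨hpp, hdvd, hσ, hcyc⟩ := hκ
  have : Fact p.Prime := ⟨hpp⟩
  obtain ⟨P⟩ : Nonempty (Sylow p M) := inferInstance
  obtain ⟨-, x, hxP, hx1, y, hy, hy1, hxy⟩ := hcyc P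
  -- a power of x of order p
  obtain ⟨n, hn⟩ := (P.2 ⟨x, hxP⟩)
  have hxo : orderOf (x : G) ∣ p ^ n := by
    apply orderOf_dvd_of_pow_eq_one
    have := congrArg (fun t : (P : Subgroup M) => ((t : M) : G)) hn
    simpa using this
  obtain ⟨k, hk, hxk⟩ := (Nat.dvd_prime_pow hpp).mp hxo
  have hk0 : k ≠ 0 := by
    rintro rfl
    rw [pow_zero, orderOf_eq_one_iff] at hxk
    exact hx1 (Subtype.ext hxk)
  obtain ⟨j, rfl⟩ := Nat.exists_eq_succ_of_ne_zero hk0
  set z₀ : G := (x : G) ^ (p ^ j) with hz₀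
  have hz₀o : orderOf z₀ = p := by
    rw [hz₀, orderOf_pow' _ (pow_ne_zero _ hpp.ne_zero), hxk, Nat.gcd_eq_right (pow_dvd_pow p (Nat.le_succ j)),
      pow_succ, Nat.mul_div_cancel_left _ (pow_pos hpp.pos j)]
  have hz₀M : z₀ ∈ M := M.pow_mem x.2 _
  have hz₀y : z₀ * y = y * z₀ := by
    have : Commute (x : G) y := hxy
    exact (this.pow_left _).eq
  refine mem_kappa_of_rank_one hodd _ p ?_ (pRankLE_map_conj hr1 g) (g * z₀ * g⁻¹)
    (conj_mem_map_conj g hz₀M) (by rw [orderOf_conj, hz₀o]) (g * y * g⁻¹)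
    (conj_mem_sigmaCore_map hy g) (conj_ne_one hy1) (conj_commute hz₀y g).eq
  rw [Cfsg.Agent.Lib.Helper27.BG.sigma_map_conj]
  exact hσ

/-- `κ` is invariant under conjugation. -/
theorem kappa_map_conj [Finite G] (hodd : Odd (Nat.card G)) (M : Subgroup G) (g : G) :
    kappa (M.map (MulAut.conj g).toMonoidHom) = kappa M := by
  apply Set.Subset.antisymm
  · have := kappa_subset_kappa_map_conj hodd (M.map (MulAut.conj g).toMonoidHom) g⁻¹
    rwa [map_conj_inv_map_conj] at this
  · exact kappa_subset_kappa_map_conj hodd M g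

/-! ### `π`-parts of an element -/

/-- Every element of a finite group is the product of two commuting powers of itself, one a
`π`-element and the other a `π'`-element. -/
theorem exists_pi_decomp [Finite G] (π : Set ℕ) (g : G) :
    ∃ a b : G, g = a * b ∧ a ∈ Subgroup.zpowers g ∧ b ∈ Subgroup.zpowers g ∧
      (∀ q : ℕ, q.Prime → q ∣ orderOf a → q ∈ π) ∧ (∀ q : ℕ, q.Prime → q ∣ orderOf b → q ∉ π) := by
  have hn : orderOf g ≠ 0 := (orderOf_pos g).ne'
  obtain ⟨u, v, huv, hu, hv⟩ := exists_pi_factor π (orderOf g) hn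
  have hco : u.Coprime v := by
    apply Nat.coprime_of_dvd
    intro k hk h1 h2
    exact hv k hk h2 (hu k hk h1)
  obtain ⟨e, he1, he2⟩ := Nat.chineseRemainder hco 1 0
  obtain ⟨f, hf1, hf2⟩ := Nat.chineseRemainder hco 0 1
  have hve : v ∣ e := (Nat.modEq_zero_iff_dvd).mp he2
  have huf : u ∣ f := (Nat.modEq_zero_iff_dvd).mp hf1
  have ha : (g ^ e) ^ u = 1 := by
    rw [← pow_mul]
    apply orderOf_dvd_iff_pow_eq_one.mp
    rw [huv, mul_comm]
    exact Nat.mul_dvd_mul_right hve u
  have hb : (g ^ f) ^ v = 1 := by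
    rw [← pow_mul]
    apply orderOf_dvd_iff_pow_eq_one.mp
    rw [huv]
    exact Nat.mul_dvd_mul_right huf v
  refine ⟨g ^ e, g ^ f, ?_, Subgroup.npow_mem_zpowers g e, Subgroup.npow_mem_zpowers g f, ?_, ?_⟩
  · rw [← pow_add]
    have h1 : e + f ≡ 1 [MOD u] := by
      have := Nat.ModEq.add he1 hf1
      simpa using this
    have h2 : e + f ≡ 1 [MOD v] := by
      have := Nat.ModEq.add he2 hf2
      simpa using this
    have h3 : e + f ≡ 1 [MOD u * v] := (Nat.modEq_and_modEq_iff_modEq_mul hco).mp ⟨h1, h2⟩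
    rw [← huv] at h3
    have := (pow_eq_pow_iff_modEq (x := g)).mpr h3
    rw [this, pow_one]
  · intro q hq hdvd
    exact hu q hq (hdvd.trans (orderOf_dvd_of_pow_eq_one ha))
  · intro q hq hdvd
    exact hv q hq (hdvd.trans (orderOf_dvd_of_pow_eq_one hb))

end Cfsg.Agent.Lib.Helper85.BG
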