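import Mathlib
import Cfsg.Prelude.Def_OddOrderLocal
import Cfsg.Statements.S1415
import Cfsg.Statements.S1427
import Cfsg.Statements.S1428
import Cfsg.Agent.Lib.Helper85.BG.Conj
import Cfsg.Agent.Lib.Helper75.BGUtil

/-!
S1430 campaign, step (P0) of helper34's note 2134: a Hall `τ₁(M)`-subgroup `E₁` of a complement
`E` of `M_σ` acts semiprimely on `M_σ`: `C_{M_σ}(x) = C_{M_σ}(E₁)` for every `x ∈ E₁ \ {1}`
(S1428 both ways + S1427) — helper85.
-/

set_option autoImplicit false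

namespace Cfsg.Agent.Lib.Helper85.BG

open Cfsg

universe u

theorem centralizer_zpowers_eq_singleton {G : Type u} [Group G] (y : G) :
    Subgroup.centralizer ((Subgroup.zpowers y : Subgroup G) : Set G) =
      Subgroup.centralizer ({y} : Set G) := by
  apply le_antisymm
  · apply Subgroup.centralizer_le
    intro z hz
    rw [Set.mem_singleton_iff] at hz
    rw [hz]
    exact Subgroup.mem_zpowers y
  · intro c hc
    apply Subgroup.mem_centralizer_iff.mpr
    intro h hh
    obtain ⟨k, rfl⟩ := Subgroup.mem_zpowers_iff.mp hh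
    have h1 : Commute c y := Subgroup.mem_centralizer_singleton_iff.mp hc
    exact (h1.zpow_right k).eq.symm

/-- A subgroup containing all prime-power-order powers of `g` contains `g`. -/
theorem mem_of_prime_power_mem_aux {G : Type u} [Group G] [Finite G] (H : Subgroup G) :
    ∀ n : ℕ, ∀ g : G, orderOf g = n →
      (∀ y ∈ Subgroup.zpowers g, ∀ p : ℕ, p.Prime →
        (∀ q : ℕ, q.Prime → q ∣ orderOf y → q = p) → y ∈ H) → g ∈ H := by
  intro n
  induction n using Nat.strong_induction_on with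
  | _ n ih =>
    intro g hn h
    by_cases h1 : g = 1
    · rw [h1]; exact H.one_mem
    have ho : orderOf g ≠ 1 := fun h' => h1 (orderOf_eq_one_iff.mp h')
    obtain ⟨p, hp, hpd⟩ := Nat.exists_prime_and_dvd ho
    obtain ⟨a, b, hab, ha, hb, hap, hbp⟩ := exists_pi_decomp ({p} : Set ℕ) g
    have haH : a ∈ H := h a ha p hp (fun q hq hqd => hap q hq hqd)
    have hbH : b ∈ H := by
      refine ih (orderOf b) ?_ b rfl ?_
      · rw [← hn]
        have hdvd : orderOf b ∣ orderOf g := orderOf_dvd_of_mem_zpowers hb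
        have hne : orderOf b ≠ orderOf g := by
          intro heq
          exact hbp p hp (heq ▸ hpd) rfl
        exact lt_of_le_of_ne (Nat.le_of_dvd (orderOf_pos g) hdvd) hne
      · intro y hy q hq hyq
        exact h y (((Subgroup.zpowers_le).mpr hb) hy) q hq hyq
    rw [hab]; exact H.mul_mem haH hbH

theorem mem_of_prime_power_mem {G : Type u} [Group G] [Finite G] (H : Subgroup G) (g : G)
    (h : ∀ y ∈ Subgroup.zpowers g, ∀ p : ℕ, p.Prime →
      (∀ q : ℕ, q.Prime → q ∣ orderOf y → q = p) → y ∈ H) : g ∈ H :=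
  mem_of_prime_power_mem_aux H (orderOf g) g rfl h

/-- A non-identity element of a finite group has a power of prime order. -/
theorem exists_prime_order_pow {G : Type u} [Group G] [Finite G] {x : G} (hx1 : x ≠ 1) :
    ∃ y ∈ Subgroup.zpowers x, (orderOf y).Prime ∧ y ≠ 1 := by
  have ho : orderOf x ≠ 1 := fun h' => hx1 (orderOf_eq_one_iff.mp h')
  obtain ⟨p, hp, hpd⟩ := Nat.exists_prime_and_dvd ho
  have h1 : orderOf (x ^ (orderOf x / p)) = p :=
    orderOf_pow_orderOf_div (orderOf_pos x).ne' hpd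
  refine ⟨x ^ (orderOf x / p), Subgroup.npow_mem_zpowers x _, by rw [h1]; exact hp, ?_⟩
  intro h
  rw [h, orderOf_one] at h1
  exact hp.one_lt.ne h1

/-- **(P0)** A Hall `τ₁(M)`-subgroup `E₁` of a complement `E` of `M_σ` in `M` acts semiprimely
on `M_σ`. -/
theorem tau1_semiprime {G : Type u} [Group G] [Finite G] (hG : Cfsg.IsMinSimpleOddOrder G)
    (h1415 : type_of% (@Cfsg.CfsgFrozen.S1415 G _ _ hG))
    (h1427 : type_of% (@Cfsg.CfsgFrozen.S1427 G _ _ hG))
    (h1428 : type_of% (@Cfsg.CfsgFrozen.S1428 G _ _ hG))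
    (M : Subgroup G) (hM : IsCoatom M) (E : Subgroup G)
    (hE : Cfsg.IsComplIn E (Cfsg.sigmaCore M) M)
    (E1 : Subgroup G) (hE1 : Cfsg.IsPiHallOf (Cfsg.tau1 M) E1 E) :
    ∀ x ∈ E1, x ≠ 1 → Cfsg.sigmaCore M ⊓ Subgroup.centralizer ({x} : Set G) =
      Cfsg.sigmaCore M ⊓ Subgroup.centralizer (E1 : Set G) := by
  intro x hx hx1
  have hE1c : IsCyclic E1 := (h1415 M hM E hE).2.1 E1 hE1
  have hE1E : E1 ≤ E := hE1.1
  have hEM : E ≤ M := hE.1
  have hcomm : ∀ a ∈ E1, ∀ b ∈ E1, a * b = b * a := by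
    obtain ⟨g, hg⟩ := hE1c.exists_generator
    intro a ha b hb
    obtain ⟨i, hi⟩ := Subgroup.mem_zpowers_iff.mp (hg ⟨a, ha⟩)
    obtain ⟨j, hj⟩ := Subgroup.mem_zpowers_iff.mp (hg ⟨b, hb⟩)
    have hi' : (g : G) ^ i = a := by
      have := congrArg Subtype.val hi
      simpa using this
    have hj' : (g : G) ^ j = b := by
      have := congrArg Subtype.val hj
      simpa using this
    rw [← hi', ← hj', ← zpow_add, ← zpow_add, add_comm]
  have key1 : ∀ y ∈ E1, ∀ z ∈ E1, (orderOf y).Prime → (orderOf z).Prime →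
      Cfsg.sigmaCore M ⊓ Subgroup.centralizer ({y} : Set G) ≤
        Cfsg.sigmaCore M ⊓ Subgroup.centralizer ({z} : Set G) := by
    intro y hy z hz hpy hpz
    have hp : orderOf y ∈ Cfsg.tau1 M :=
      hE1.2.1 _ hpy (Subgroup.orderOf_dvd_natCard E1 hy)
    have hzc : Subgroup.zpowers z ≤
        Subgroup.centralizer ((Subgroup.zpowers y : Subgroup G) : Set G) := by
      rw [Subgroup.zpowers_le, centralizer_zpowers_eq_singleton]
      exact Subgroup.mem_centralizer_singleton_iff.mpr (hcomm z hz y hy)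
    have h := h1428 M hM E hE (orderOf y) hp (Subgroup.zpowers y)
      ((Subgroup.zpowers_le).mpr (hE1E hy)) (Nat.card_zpowers y) (Subgroup.zpowers z)
      (le_inf ((Subgroup.zpowers_le).mpr (hE1E hz)) hzc)
      (by rw [Nat.card_zpowers]; exact hpz)
    rwa [centralizer_zpowers_eq_singleton, centralizer_zpowers_eq_singleton] at h
  have key2 : ∀ y ∈ E1, y ≠ 1 → ∀ p : ℕ, p.Prime →
      (∀ q : ℕ, q.Prime → q ∣ orderOf y → q = p) →
      ∀ y0 ∈ Subgroup.zpowers y, y0 ≠ 1 →
      Cfsg.sigmaCore M ⊓ Subgroup.centralizer ({y} : Set G) =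
        Cfsg.sigmaCore M ⊓ Subgroup.centralizer ({y0} : Set G) := by
    intro y hy hy1 p hp hq y0 hy0 hy01
    haveI : Fact p.Prime := ⟨hp⟩
    have hoy : orderOf y ≠ 1 := fun h => hy1 (orderOf_eq_one_iff.mp h)
    have hpdvd : p ∣ orderOf y := by
      obtain ⟨q, hqp, hqd⟩ := Nat.exists_prime_and_dvd hoy
      rw [← hq q hqp hqd]; exact hqd
    have hpE1 : p ∣ Nat.card E1 := hpdvd.trans (Subgroup.orderOf_dvd_natCard E1 hy)
    have hpτ : p ∈ Cfsg.tau1 M := hE1.2.1 p hp hpE1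
    have hp2 : p ≠ 2 := by
      rintro rfl
      have h2 : 2 ∣ Nat.card G := hpE1.trans (Subgroup.card_subgroup_dvd_card E1)
      exact (Nat.not_even_iff_odd.mpr hG.1) (even_iff_two_dvd.mpr h2)
    have hcard : Nat.card (Subgroup.zpowers y) = p ^ (orderOf y).primeFactorsList.length := by
      rw [Nat.card_zpowers]
      exact Nat.eq_prime_pow_of_unique_prime_dvd (orderOf_pos y).ne'
        (fun {d} hd hdd => hq d hd hdd)
    have hPg : IsPGroup p (Subgroup.zpowers y) := IsPGroup.of_card hcard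
    obtain ⟨S, hS⟩ := (hPg.comap_subtype (K := E)).exists_le_sylow
    have hyS : (⟨y, hE1E hy⟩ : E) ∈ (S : Subgroup E) :=
      hS (Subgroup.mem_comap.mpr (Subgroup.mem_zpowers y))
    have hS1 : (S : Subgroup E) ≠ ⊥ := by
      intro h
      rw [h, Subgroup.mem_bot] at hyS
      exact hy1 (congrArg Subtype.val hyS)
    have hSc : IsCyclic (S : Subgroup E) :=
      Cfsg.Agent.Lib.Helper75.BG.isCyclic_sylow_of_rank_one M E hEM p hp2 hpτ.2.2.2.2 S
    have h27 := h1427 M hM E hE p S hS1 hSc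
    have hy0E : y0 ∈ E := hE1E (((Subgroup.zpowers_le).mpr hy) hy0)
    have hy0S : (⟨y0, hy0E⟩ : E) ∈ (S : Subgroup E) := hS (Subgroup.mem_comap.mpr hy0)
    rw [h27 y ⟨⟨y, hE1E hy⟩, hyS, rfl⟩ hy1, h27 y0 ⟨⟨y0, hy0E⟩, hy0S, rfl⟩ hy01]
  -- the common centralizer
  obtain ⟨y0, hy0x, hy0p, hy01⟩ := exists_prime_order_pow hx1
  have hy0E1 : y0 ∈ E1 := ((Subgroup.zpowers_le).mpr hx) hy0x
  obtain ⟨D0, hD0⟩ : ∃ D0 : Subgroup G,
      D0 = Cfsg.sigmaCore M ⊓ Subgroup.centralizer ({y0} : Set G) := ⟨_, rfl⟩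
  have allprime : ∀ z ∈ E1, (orderOf z).Prime →
      Cfsg.sigmaCore M ⊓ Subgroup.centralizer ({z} : Set G) = D0 := by
    intro z hz hpz
    rw [hD0]
    exact le_antisymm (key1 z hz y0 hy0E1 hpz hy0p) (key1 y0 hy0E1 z hz hy0p hpz)
  have allpp : ∀ y ∈ E1, y ≠ 1 → ∀ p : ℕ, p.Prime →
      (∀ q : ℕ, q.Prime → q ∣ orderOf y → q = p) →
      Cfsg.sigmaCore M ⊓ Subgroup.centralizer ({y} : Set G) = D0 := by
    intro y hy hy1 p hp hq
    obtain ⟨w, hwy, hwp, hw1⟩ := exists_prime_order_pow hy1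
    rw [key2 y hy hy1 p hp hq w hwy hw1]
    exact allprime w (((Subgroup.zpowers_le).mpr hy) hwy) hwp
  have hcent : ∀ g ∈ E1, g ∈ Subgroup.centralizer (D0 : Set G) := by
    intro g hg
    apply mem_of_prime_power_mem
    intro y hy p hp hq
    by_cases hy1 : y = 1
    · rw [hy1]; exact Subgroup.one_mem _
    have hyE1 : y ∈ E1 := ((Subgroup.zpowers_le).mpr hg) hy
    have h1 := allpp y hyE1 hy1 p hp hq
    apply Subgroup.mem_centralizer_iff.mpr
    intro d hd
    rw [← h1] at hd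
    exact Subgroup.mem_centralizer_singleton_iff.mp (Subgroup.mem_inf.mp hd).2
  apply le_antisymm
  · intro c hc
    obtain ⟨hc1, hc2⟩ := Subgroup.mem_inf.mp hc
    have hcD : c ∈ D0 := by
      rw [hD0]
      refine Subgroup.mem_inf.mpr ⟨hc1, ?_⟩
      have h1 : c ∈ Subgroup.centralizer ((Subgroup.zpowers x : Subgroup G) : Set G) := by
        rw [centralizer_zpowers_eq_singleton]; exact hc2
      apply Subgroup.mem_centralizer_singleton_iff.mpr
      exact ((Subgroup.mem_centralizer_iff.mp h1) y0 hy0x).symm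
    refine Subgroup.mem_inf.mpr ⟨hc1, ?_⟩
    apply Subgroup.mem_centralizer_iff.mpr
    intro g hg
    exact ((Subgroup.mem_centralizer_iff.mp (hcent g hg)) c hcD).symm
  · refine inf_le_inf_left _ (Subgroup.centralizer_le ?_)
    intro z hz
    rw [Set.mem_singleton_iff] at hz
    rw [hz]; exact hx

end Cfsg.Agent.Lib.Helper85.BG
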