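import Mathlib
import Cfsg.Agent.Lib.Helper65.BG.S1391Defs

/-!
S1391 team project (helper65): package `LemTR1` (`M_s = M_σ` for every maximal subgroup)
— helper85.
-/

set_option autoImplicit false

namespace Cfsg.Agent.Lib.Helper85.BG

open Cfsg

universe u

/-- `M_F = M_σ` unless `K ≠ 1` (from S1437). -/
theorem fittingHallOf_eq_sigmaCore_of_not_prime {G : Type u} [Group G] [Finite G]
    (hG : Cfsg.IsMinSimpleOddOrder G)
    (h1437 : type_of% (@Cfsg.CfsgFrozen.S1437 G _ _ hG))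
    (M : Subgroup G) (hM : IsCoatom M) (K U : Subgroup G)
    (hKU : Cfsg.IsSigmaDecomposition M K U) (hK : ¬ (Nat.card K).Prime) :
    Cfsg.fittingHallOf M = Cfsg.sigmaCore M := by
  by_contra hne
  exact hK (h1437 M hM K U hKU hne).2.2.1

theorem lemTR1 : Cfsg.Agent.Lib.Helper65.BG91.LemTR1.{u} := by
  intro G _ _ hG h1351 h1352 _h1365 h1382 h1437 M hM
  obtain ⟨K, hK⟩ := (h1351 M hM).1
  have hKc : IsCyclic K := (h1351 M hM).2 K hK
  obtain ⟨U, hKU⟩ := (h1352 M hM K hKc hK).1
  have h82 := h1382 M hM K U hKU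
  by_cases h34 : Cfsg.IsOfTypeIII M ∨ Cfsg.IsOfTypeIV M
  · have hne := (h82.mp h34).2.2
    have h37 := h1437 M hM K U hKU hne
    unfold Cfsg.typeCore
    rw [if_pos h34]
    exact h37.2.1.symm
  · unfold Cfsg.typeCore
    rw [if_neg h34]
    by_contra hne
    have h37 := h1437 M hM K U hKU hne
    apply h34
    apply h82.mpr
    refine ⟨?_, h37.1, hne⟩
    rintro rfl
    have hp := h37.2.2.1
    rw [Subgroup.card_bot] at hp
    exact Nat.not_prime_one hp

end Cfsg.Agent.Lib.Helper85.BG
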