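import Mathlib
import Cfsg.Agent.Lib.Helper65.BG.S1391Defs
import Cfsg.Agent.Lib.Helper85.BG.S1391TR1
import Cfsg.Agent.Lib.Helper47.BG.S1385Core
import Cfsg.Agent.Lib.Helper67.BG.Basics

/-!
S1391 team project (helper65): package `LemTR2` (`A(M) = (M̂_σ ∩ U M_σ) \ {1}`) — helper85.
-/

set_option autoImplicit false

namespace Cfsg.Agent.Lib.Helper85.BG

open Cfsg

universe u

theorem sup_sigmaCore_le_of_decomp {G : Type u} [Group G] (M K U : Subgroup G)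
    (hKU : Cfsg.IsSigmaDecomposition M K U) : U ⊔ Cfsg.sigmaCore M ≤ M :=
  sup_le hKU.compl.1 (Cfsg.Agent.Lib.Helper67.BG.sigmaCore_le M)

theorem le_sup_sigmaCore_of_bot {G : Type u} [Group G] (M K U : Subgroup G)
    (hKU : Cfsg.IsSigmaDecomposition M K U) (hK : K = ⊥) : M ≤ U ⊔ Cfsg.sigmaCore M := by
  intro m hm
  obtain ⟨u, hu, b, hb, rfl⟩ := hKU.compl.2.2.2 m hm
  rw [hK, bot_sup_eq] at hb
  exact Subgroup.mul_mem _ (Subgroup.mem_sup_left hu) (Subgroup.mem_sup_right hb)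

/-- A maximal subgroup not of Type I has `K ≠ 1`. -/
theorem kappaHall_ne_bot_of_not_typeI {G : Type u} [Group G] [Finite G]
    (hG : Cfsg.IsMinSimpleOddOrder G)
    (h1355 : type_of% (@Cfsg.CfsgFrozen.S1355 G _ _ hG))
    (h1380 : type_of% (@Cfsg.CfsgFrozen.S1380 G _ _ hG))
    (M : Subgroup G) (hM : IsCoatom M) (K U : Subgroup G)
    (hKU : Cfsg.IsSigmaDecomposition M K U) (hI : ¬ Cfsg.IsOfTypeI M) : K ≠ ⊥ := by
  intro hK
  have hU : U = ⊥ := by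
    by_contra hU
    exact hI ((h1380 M hM K U hKU).mpr ⟨hK, hU⟩)
  have h1 := Cfsg.Agent.Lib.Helper47.BG.sigmaDecomposition_le_of_bot M K U hKU hK hU
  have h55 := h1355 M hM
  exact absurd (h1.trans h55.2.2.1) (not_le_of_gt h55.2.2.2.1)

theorem lemTR2 : Cfsg.Agent.Lib.Helper65.BG91.LemTR2.{u} := by
  intro G _ _ hG h1351 h1352 h1355 h1365 h1380 h1382 h1437 M hM K U hKU
  have hN0M : U ⊔ Cfsg.sigmaCore M ≤ M := sup_sigmaCore_le_of_decomp M K U hKU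
  by_cases hI : Cfsg.IsOfTypeI M
  · obtain ⟨hK, -⟩ := (h1380 M hM K U hKU).mp hI
    have hF : Cfsg.fittingHallOf M = Cfsg.sigmaCore M := by
      apply fittingHallOf_eq_sigmaCore_of_not_prime hG h1437 M hM K U hKU
      rw [hK, Subgroup.card_bot]; exact Nat.not_prime_one
    have hMN0 := le_sup_sigmaCore_of_bot M K U hKU hK
    unfold Cfsg.typeA
    rw [if_pos hI, hF]
    ext a
    simp only [Cfsg.sigmaA, Cfsg.sigmaHat, Set.mem_setOf_eq, Set.mem_diff, Set.mem_inter_iff,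
      Set.mem_singleton_iff, SetLike.mem_coe]
    constructor
    · rintro ⟨haM, ha1, hex⟩
      exact ⟨⟨⟨haM, hex⟩, hMN0 haM⟩, ha1⟩
    · rintro ⟨⟨⟨haM, hex⟩, -⟩, ha1⟩
      exact ⟨haM, ha1, hex⟩
  · have hK : K ≠ ⊥ := kappaHall_ne_bot_of_not_typeI hG h1355 h1380 M hM K U hKU hI
    have hD : ⁅M, M⁆ = U ⊔ Cfsg.sigmaCore M := (h1365 M hM K U hKU hK).1
    have hT : Cfsg.typeCore M = Cfsg.sigmaCore M :=
      lemTR1 hG h1351 h1352 h1365 h1382 h1437 M hM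
    unfold Cfsg.typeA
    rw [if_neg hI, hT, hD]
    ext a
    simp only [Cfsg.sigmaA, Cfsg.sigmaHat, Set.mem_setOf_eq, Set.mem_diff, Set.mem_inter_iff,
      Set.mem_singleton_iff, SetLike.mem_coe]
    constructor
    · rintro ⟨haN, ha1, hex⟩
      exact ⟨⟨⟨hN0M haN, hex⟩, haN⟩, ha1⟩
    · rintro ⟨⟨⟨-, hex⟩, haN⟩, ha1⟩
      exact ⟨haN, ha1, hex⟩

end Cfsg.Agent.Lib.Helper85.BG
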