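import Mathlib
import Cfsg.Agent.Lib.Helper70.BG.S1421Defs
import Cfsg.Agent.Lib.Helper35.BG.Hall

/-!
S1421 team project (helper70): package `LemT` (a subgroup of order `p` of an abelian `p`-group
meeting the `p`-th powers trivially is a direct factor) — helper85.
-/

set_option autoImplicit false

namespace Cfsg.Agent.Lib.Helper85.BG

open Cfsg

universe u

theorem lemT_mem_sup {G : Type u} [Group G] {A B : Subgroup G}
    (hAB : ∀ a ∈ A, ∀ b ∈ B, a * b = b * a) {z : G}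
    (hz : z ∈ A ⊔ B) : ∃ a ∈ A, ∃ b ∈ B, z = a * b := by
  have hnorm : B ≤ Subgroup.normalizer (A : Set G) := by
    intro b hb
    rw [Subgroup.mem_normalizer_iff]
    intro x
    constructor
    · intro hx
      have : b * x * b⁻¹ = x := by rw [← hAB x hx b hb]; group
      rw [this]; exact hx
    · intro hx
      have h1 : b * x * b⁻¹ * b = b * (b * x * b⁻¹) := hAB _ hx b hb
      have h2 : b * x = b * (b * x * b⁻¹) := by rw [← h1]; group
      have h3 : x = b * x * b⁻¹ := mul_left_cancel h2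
      rw [h3]; exact hx
  have h1 : z ∈ ((A ⊔ B : Subgroup G) : Set G) := hz
  rw [Subgroup.coe_mul_of_right_le_normalizer_left A B hnorm] at h1
  obtain ⟨a, ha, b, hb, rfl⟩ := h1
  exact ⟨a, ha, b, hb, rfl⟩

theorem lemT : Cfsg.Agent.Lib.Helper70.BG21.LemT.{u} := by
  intro G _ _ p _ P X hPp hP hXP hXcard hX
  have hpp : p.Prime := Fact.out
  have hcommP : ∀ a ∈ P, ∀ b ∈ P, a * b = b * a :=
    Cfsg.Agent.Lib.Helper35.BG.isMulCommutative_subgroup_iff.mp hP
  -- `X = ⟨w⟩` for every nonidentity `w ∈ X`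
  have hXgen : ∀ w ∈ X, w ≠ 1 → X ≤ Subgroup.zpowers w := by
    intro w hw hw1
    have hle : Subgroup.zpowers w ≤ X := (Subgroup.zpowers_le).mpr hw
    have hcard : Nat.card (Subgroup.zpowers w) = p := by
      have hdvd : Nat.card (Subgroup.zpowers w) ∣ Nat.card X := Subgroup.card_dvd_of_le hle
      rw [hXcard] at hdvd
      rcases (Nat.dvd_prime hpp).mp hdvd with h | h
      · exfalso
        rw [Nat.card_zpowers, orderOf_eq_one_iff] at h
        exact hw1 h
      · exact h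
    have : Subgroup.zpowers w = X :=
      Subgroup.eq_of_le_of_card_ge hle (by rw [hcard, hXcard])
    exact this.ge
  -- the `p`-th power map
  let φ : ↥P →* G := MonoidHom.mk' (fun x => (x : G) ^ p) (by
    intro a b
    show ((a : G) * (b : G)) ^ p = (a : G) ^ p * (b : G) ^ p
    exact (show Commute (a : G) (b : G) from hcommP a a.2 b b.2).mul_pow p)
  have hφ : ∀ x : ↥P, φ x = (x : G) ^ p := fun x => rfl
  have hT₀P : φ.range ≤ P := by
    rintro _ ⟨x, rfl⟩
    rw [hφ]; exact P.pow_mem x.2 p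
  have hT₀X : φ.range ⊓ X = ⊥ := by
    rw [eq_bot_iff]
    intro w hw
    obtain ⟨hw1, hw2⟩ := Subgroup.mem_inf.mp hw
    rw [Subgroup.mem_bot]
    by_contra hne
    obtain ⟨e, he⟩ := hw1
    rw [hφ] at he
    have h1 : X ≤ Subgroup.zpowers w := hXgen w hw2 hne
    have h2 : Subgroup.zpowers w ≤ Subgroup.zpowers (e : G) := by
      rw [Subgroup.zpowers_le, ← he]
      exact Subgroup.pow_mem _ (Subgroup.mem_zpowers _) p
    exact hX (e : G) e.2 (by rw [he]; exact hne) (h1.trans h2)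
  -- a maximal `T`
  obtain ⟨Q, hQdef⟩ : ∃ Q : Subgroup G → Prop,
      Q = fun T => T ≤ P ∧ (∀ x ∈ P, x ^ p ∈ T) ∧ T ⊓ X = ⊥ := ⟨_, rfl⟩
  have hQ₀ : Q φ.range := by
    rw [hQdef]
    exact ⟨hT₀P, fun x hx => ⟨⟨x, hx⟩, rfl⟩, hT₀X⟩
  obtain ⟨T, -, hTmax⟩ := Finite.exists_le_maximal hQ₀
  have hQT : Q T := hTmax.prop
  rw [hQdef] at hQT
  obtain ⟨hTP, hTpow, hTX⟩ := hQT
  refine ⟨T, hTP, hTX, ?_⟩
  by_contra hne
  have hlt : T ⊔ X < P := lt_of_le_of_ne (sup_le hTP hXP) hne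
  obtain ⟨y, hyP, hyTX⟩ := SetLike.exists_of_lt hlt
  have hyT : y ∉ T := fun h => hyTX (Subgroup.mem_sup_left h)
  have hQ' : Q (T ⊔ Subgroup.zpowers y) := by
    rw [hQdef]
    refine ⟨sup_le hTP ((Subgroup.zpowers_le).mpr hyP),
      fun x hx => Subgroup.mem_sup_left (hTpow x hx), ?_⟩
    rw [eq_bot_iff]
    intro w hw
    obtain ⟨hw1, hw2⟩ := Subgroup.mem_inf.mp hw
    rw [Subgroup.mem_bot]
    have hcomm : ∀ a ∈ T, ∀ b ∈ Subgroup.zpowers y, a * b = b * a := fun a ha b hb =>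
      hcommP a (hTP ha) b ((Subgroup.zpowers_le).mpr hyP hb)
    obtain ⟨t, ht, b, hb, rfl⟩ := lemT_mem_sup hcomm hw1
    obtain ⟨i, rfl⟩ := Subgroup.mem_zpowers_iff.mp hb
    by_cases hpi : (p : ℤ) ∣ i
    · obtain ⟨j, rfl⟩ := hpi
      have hyi : y ^ ((p : ℤ) * j) ∈ T := by
        rw [zpow_mul, zpow_natCast]
        exact T.zpow_mem (hTpow y hyP) j
      have : t * y ^ ((p : ℤ) * j) ∈ T ⊓ X := Subgroup.mem_inf.mpr ⟨T.mul_mem ht hyi, hw2⟩
      rw [hTX, Subgroup.mem_bot] at this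
      exact this
    · exfalso
      have hcop : IsCoprime (p : ℤ) i :=
        ((Nat.prime_iff_prime_int.mp hpp).coprime_iff_not_dvd).mpr hpi
      obtain ⟨u, v, huv⟩ := hcop
      have hyi : y ^ i ∈ T ⊔ X := by
        have : y ^ i = t⁻¹ * (t * y ^ i) := by group
        rw [this]
        exact Subgroup.mul_mem _ (Subgroup.mem_sup_left (T.inv_mem ht))
          (Subgroup.mem_sup_right hw2)
      have hy : y = (y ^ p) ^ u * (y ^ i) ^ v := by
        rw [← zpow_natCast y p, ← zpow_mul, ← zpow_mul, ← zpow_add, mul_comm (p : ℤ) u,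
          mul_comm i v, huv, zpow_one]
      apply hyTX
      rw [hy]
      exact Subgroup.mul_mem _ (Subgroup.mem_sup_left (T.zpow_mem (hTpow y hyP) u))
        (Subgroup.zpow_mem _ hyi v)
  have hle : T ≤ T ⊔ Subgroup.zpowers y := le_sup_left
  have hge := hTmax.le_of_ge hQ' hle
  exact hyT (hge (Subgroup.mem_sup_right (Subgroup.mem_zpowers y)))

end Cfsg.Agent.Lib.Helper85.BG
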