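import Mathlib
import Cfsg.Agent.Lib.Helper65.BG.S1391Defs
import Cfsg.Agent.Lib.Helper85.BG.S1391TR2
import Cfsg.Agent.Lib.Helper85.BG.S1421T
import Cfsg.Agent.Lib.Helper47.BG.S1385Core
import Cfsg.Agent.Lib.Helper67.BG.Basics
import Cfsg.Agent.Lib.Helper35.BG.Hall
import Cfsg.Agent.Lib.Helper35.BG.Basic
import Cfsg.Agent.Lib.Helper1.SZInternal
import Cfsg.Agent.Lib.Helper1.Basic
import Cfsg.Agent.Lib.Helper23.Compl

/-!
S1391 team project (helper65): package `LemTR3` (`A₀(M) = A₀-in-σ-language \ {1}`) — helper85.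
-/

set_option autoImplicit false

namespace Cfsg.Agent.Lib.Helper85.BG

open Cfsg

universe u

theorem map_conj_eq_of_mem_iff {G : Type u} [Group G] {W K : Subgroup G} {n : G}
    (h : ∀ w, w ∈ W ↔ n * w * n⁻¹ ∈ K) : W.map (MulAut.conj n).toMonoidHom = K := by
  ext x
  rw [Cfsg.Agent.Lib.Helper35.BG.mem_map_conj_iff, h]
  have : n * (n⁻¹ * x * n) * n⁻¹ = x := by group
  rw [this]

theorem mem_iff_conj_mem_map {G : Type u} [Group G] (W : Subgroup G) (n w : G) :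
    w ∈ W ↔ n * w * n⁻¹ ∈ W.map (MulAut.conj n).toMonoidHom := by
  rw [Cfsg.Agent.Lib.Helper35.BG.mem_map_conj_iff]
  have : n⁻¹ * (n * w * n⁻¹) * n = w := by group
  rw [this]

/-- For `M` with `K ≠ 1`, any type-P data `(W₁, U', W₂)` of `M` is `M`-conjugate to
`(K, K*)`. -/
theorem typeP_conj {G : Type u} [Group G] [Finite G] (hG : Cfsg.IsMinSimpleOddOrder G)
    (h1352 : type_of% (@Cfsg.CfsgFrozen.S1352 G _ _ hG))
    (h1354 : type_of% (@Cfsg.CfsgFrozen.S1354 G _ _ hG))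
    (h1365 : type_of% (@Cfsg.CfsgFrozen.S1365 G _ _ hG))
    (M : Subgroup G) (hM : IsCoatom M) (K U : Subgroup G)
    (hKU : Cfsg.IsSigmaDecomposition M K U) (hK1 : K ≠ ⊥)
    (W₁ U' W₂ : Subgroup G) (hP : Cfsg.IsTypePWith M W₁ U' W₂) :
    ∃ n ∈ M, (∀ w, w ∈ W₁ ↔ n * w * n⁻¹ ∈ K) ∧
      (∀ w, w ∈ W₂ ↔ n * w * n⁻¹ ∈ Cfsg.sigmaCore M ⊓ Subgroup.centralizer (K : Set G)) ∧
      (∀ w, w ∈ W₁ ⊔ W₂ ↔
        n * w * n⁻¹ ∈ K ⊔ (Cfsg.sigmaCore M ⊓ Subgroup.centralizer (K : Set G))) := by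
  have hKc := hKU.cyclic
  have hKh := hKU.hall
  have hKM : K ≤ M := hKh.1
  obtain ⟨D, hDdef⟩ : ∃ D : Subgroup G, D = ⁅M, M⁆ := ⟨_, rfl⟩
  have hD : D = U ⊔ Cfsg.sigmaCore M := by rw [hDdef]; exact (h1365 M hM K U hKU hK1).1
  have hDM : D ≤ M := by rw [hD]; exact sup_sigmaCore_le_of_decomp M K U hKU
  have hcomplK : Cfsg.IsComplIn D K M := by
    rw [hD]; exact Cfsg.Agent.Lib.Helper47.BG.sigmaDecomposition_complIn M K U hKU
  have hcomplW : Cfsg.IsComplIn D W₁ M := by rw [hDdef]; exact hP.W₁_compl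
  have hcardK := Cfsg.Agent.Lib.Helper23.card_of_isComplIn hcomplK
  have hcardW := Cfsg.Agent.Lib.Helper23.card_of_isComplIn hcomplW
  have hcard : Nat.card W₁ = Nat.card K := by
    have hpos : 0 < Nat.card D := Nat.card_pos
    exact Nat.eq_of_mul_eq_mul_left hpos (hcardW.symm.trans hcardK)
  have hrel : K.relIndex M = Nat.card D :=
    Cfsg.Agent.Lib.Helper35.BG.relIndex_right_of_isComplIn hcomplK
  have hcop : (Nat.card K).Coprime (Nat.card D) := by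
    rw [Nat.coprime_iff_gcd_eq_one]
    by_contra hne
    obtain ⟨p, hp, hdvd⟩ := Nat.exists_prime_and_dvd hne
    have h1 : p ∈ Cfsg.kappa M := hKh.2.1 p hp (hdvd.trans (Nat.gcd_dvd_left _ _))
    exact hKh.2.2 p hp h1 (by rw [hrel]; exact hdvd.trans (Nat.gcd_dvd_right _ _))
  have hMnD : M ≤ Subgroup.normalizer (D : Set G) := by
    rw [hD]; exact (h1352 M hM K hKc hKh).2 U hKU
  have hKnD : K ≤ Subgroup.normalizer (D : Set G) := hKM.trans hMnD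
  have hW₁M : W₁ ≤ M := hcomplW.2.1
  have hMle : M ≤ D ⊔ K := by
    intro m hm
    obtain ⟨d, hd, k, hk, rfl⟩ := hcomplK.2.2.2 m hm
    exact Subgroup.mul_mem _ (Subgroup.mem_sup_left hd) (Subgroup.mem_sup_right hk)
  have hsolv : Group.IsSolvable K := by
    haveI := hKc
    letI := IsCyclic.commGroup (α := ↥K)
    exact isSolvable_of_comm (fun a b => mul_comm a b)
  obtain ⟨n, hnD, hn⟩ := Cfsg.Agent.Lib.Helper1.sz_conj_internal D K W₁ hKnD hcop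
    (Or.inl hsolv) (hW₁M.trans hMle) hcard
  have hW₁ : ∀ w, w ∈ W₁ ↔ n * w * n⁻¹ ∈ K := by
    intro w
    rw [← hn, Cfsg.Agent.Lib.Helper1.mem_conj_smul]
    have : n⁻¹ * (n * w * n⁻¹) * n = w := by group
    rw [this]
  obtain ⟨k, hk, hk1⟩ : ∃ k ∈ K, k ≠ 1 := by
    by_contra hcon
    push_neg at hcon
    exact hK1 ((Subgroup.eq_bot_iff_forall K).mpr hcon)
  have hx : n⁻¹ * k * n ∈ W₁ := by
    rw [hW₁]
    have : n * (n⁻¹ * k * n) * n⁻¹ = k := by group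
    rw [this]; exact hk
  have hx1 : n⁻¹ * k * n ≠ 1 := by
    intro h
    apply hk1
    have : k = n * (n⁻¹ * k * n) * n⁻¹ := by group
    rw [this, h]; group
  have hW₂ := hP.W₂_centralizer _ hx hx1
  rw [← hDdef] at hW₂
  have h54 := (h1354 M hM K hKc hKh).2 hK1 k hk hk1
  obtain ⟨Kst, hKst⟩ : ∃ Kst : Subgroup G,
      Kst = Cfsg.sigmaCore M ⊓ Subgroup.centralizer (K : Set G) := ⟨_, rfl⟩
  rw [← hKst] at h54 ⊢
  have hKstD : Kst ≤ D := by rw [hKst, hD]; exact inf_le_left.trans le_sup_right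
  have hKstK : ∀ a ∈ K, ∀ b ∈ Kst, a * b = b * a := by
    intro a ha b hb
    rw [hKst] at hb
    exact (Subgroup.mem_centralizer_iff.mp (Subgroup.mem_inf.mp hb).2) a ha
  have hDk : ∀ x, x ∈ D → x * k = k * x → x ∈ Kst := by
    intro x hxD hxk
    have hxM : x ∈ M ⊓ Subgroup.centralizer ({k} : Set G) :=
      Subgroup.mem_inf.mpr ⟨hDM hxD, Subgroup.mem_centralizer_singleton_iff.mpr hxk⟩
    rw [h54] at hxM
    obtain ⟨a, ha, b, hb, rfl⟩ := lemT_mem_sup hKstK hxM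
    have ha1 : a = 1 := by
      have haD : a ∈ D := by
        have : a = (a * b) * b⁻¹ := by group
        rw [this]; exact D.mul_mem hxD (D.inv_mem (hKstD hb))
      have : a ∈ D ⊓ K := Subgroup.mem_inf.mpr ⟨haD, ha⟩
      rw [hcomplK.2.2.1, Subgroup.mem_bot] at this
      exact this
    rw [ha1, one_mul]; exact hb
  have hW₂' : ∀ w, w ∈ W₂ ↔ n * w * n⁻¹ ∈ Kst := by
    intro w
    rw [← hW₂]
    constructor
    · intro hw
      obtain ⟨hwD, hwc⟩ := Subgroup.mem_inf.mp hw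
      have hwc' : w * (n⁻¹ * k * n) = (n⁻¹ * k * n) * w :=
        Subgroup.mem_centralizer_singleton_iff.mp hwc
      apply hDk
      · exact D.mul_mem (D.mul_mem hnD hwD) (D.inv_mem hnD)
      · calc n * w * n⁻¹ * k = n * (w * (n⁻¹ * k * n)) * n⁻¹ := by group
          _ = n * ((n⁻¹ * k * n) * w) * n⁻¹ := by rw [hwc']
          _ = k * (n * w * n⁻¹) := by group
    · intro hw
      have hwD : w ∈ D := by
        have h1 : n * w * n⁻¹ ∈ D := hKstD hw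
        have : w = n⁻¹ * (n * w * n⁻¹) * n := by group
        rw [this]; exact D.mul_mem (D.mul_mem (D.inv_mem hnD) h1) hnD
      refine Subgroup.mem_inf.mpr ⟨hwD, Subgroup.mem_centralizer_singleton_iff.mpr ?_⟩
      have hc : k * (n * w * n⁻¹) = (n * w * n⁻¹) * k := hKstK k hk _ hw
      calc w * (n⁻¹ * k * n) = n⁻¹ * ((n * w * n⁻¹) * k) * n := by group
        _ = n⁻¹ * (k * (n * w * n⁻¹)) * n := by rw [hc]
        _ = n⁻¹ * k * n * w := by group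
  refine ⟨n, hDM hnD, hW₁, hW₂', ?_⟩
  intro w
  rw [mem_iff_conj_mem_map (W₁ ⊔ W₂) n w, Subgroup.map_sup, map_conj_eq_of_mem_iff hW₁,
    map_conj_eq_of_mem_iff hW₂']

theorem lemTR3 : Cfsg.Agent.Lib.Helper65.BG91.LemTR3.{u} := by
  intro G _ _ hG _h1350 h1351 h1352 h1354 h1355 h1365 h1371 h1380 h1381 h1382 h1383 h1437
    M hM K U hKU
  have hTR2 : Cfsg.typeA M = Cfsg.sigmaA M U \ {1} :=
    lemTR2 hG h1351 h1352 h1355 h1365 h1380 h1382 h1437 M hM K U hKU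
  by_cases hI : Cfsg.IsOfTypeI M
  · obtain ⟨hK, -⟩ := (h1380 M hM K U hKU).mp hI
    have hMN0 := le_sup_sigmaCore_of_bot M K U hKU hK
    unfold Cfsg.typeA0
    rw [hTR2]
    ext a
    simp only [Cfsg.sigmaA, Cfsg.sigmaA0, Cfsg.sigmaHat, Set.mem_union, Set.mem_setOf_eq,
      Set.mem_diff, Set.mem_inter_iff, Set.mem_singleton_iff, SetLike.mem_coe]
    constructor
    · rintro (⟨⟨⟨haM, hex⟩, -⟩, ha1⟩ | ⟨hnI, -⟩)
      · refine ⟨⟨⟨haM, hex⟩, ?_⟩, ha1⟩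
        rintro ⟨k, hk, hk1, -⟩
        rw [hK, Subgroup.mem_bot] at hk
        exact hk1 hk
      · exact absurd hI hnI
    · rintro ⟨⟨⟨haM, hex⟩, -⟩, ha1⟩
      exact Or.inl ⟨⟨⟨haM, hex⟩, hMN0 haM⟩, ha1⟩
  · have hK1 : K ≠ ⊥ := kappaHall_ne_bot_of_not_typeI hG h1355 h1380 M hM K U hKU hI
    obtain ⟨h71, -⟩ := h1371 M hM K U hKU hK1
    have hex : ∃ W₁ U' W₂ : Subgroup G, Cfsg.IsTypePWith M W₁ U' W₂ := by
      by_cases hU : U = ⊥
      · by_cases hF : Cfsg.fittingHallOf M = Cfsg.sigmaCore M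
        · obtain ⟨W₁, U', W₂, h, -⟩ := (h1383 M hM K U hKU).mpr ⟨hK1, hU, hF⟩
          exact ⟨W₁, U', W₂, h⟩
        · rcases (h1382 M hM K U hKU).mpr ⟨hK1, hU, hF⟩ with h | h
          · obtain ⟨W₁, U', W₂, h, -⟩ := h
            exact ⟨W₁, U', W₂, h⟩
          · obtain ⟨W₁, U', W₂, h, -⟩ := h
            exact ⟨W₁, U', W₂, h⟩
      · obtain ⟨W₁, U', W₂, h, -⟩ := (h1381 M hM K U hKU).mpr ⟨hK1, hU⟩
        exact ⟨W₁, U', W₂, h⟩
    have hsecond : {v : G | ¬ Cfsg.IsOfTypeI M ∧ ∃ W₁ U' W₂ : Subgroup G,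
        Cfsg.IsTypePWith M W₁ U' W₂ ∧
        ∃ m ∈ M, ∃ w ∈ W₁ ⊔ W₂, w ∉ W₁ ∧ w ∉ W₂ ∧ v = m * w * m⁻¹} =
        Cfsg.sigmaA0 M K \ Cfsg.sigmaA M U := by
      rw [← h71]
      ext v
      constructor
      · rintro ⟨-, W₁, U', W₂, hP, m, hm, w, hw, hw1, hw2, rfl⟩
        obtain ⟨n, hnM, hn1, hn2, hn3⟩ :=
          typeP_conj hG h1352 h1354 h1365 M hM K U hKU hK1 W₁ U' W₂ hP
        refine ⟨m * n⁻¹, M.mul_mem hm (M.inv_mem hnM), n * w * n⁻¹, ⟨(hn3 w).mp hw, ?_⟩,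
          by group⟩
        rintro (h | h)
        · exact hw1 ((hn1 w).mpr h)
        · exact hw2 ((hn2 w).mpr h)
      · rintro ⟨m, hm, z, ⟨hz, hz'⟩, rfl⟩
        obtain ⟨W₁, U', W₂, hP⟩ := hex
        obtain ⟨n, hnM, hn1, hn2, hn3⟩ :=
          typeP_conj hG h1352 h1354 h1365 M hM K U hKU hK1 W₁ U' W₂ hP
        have hzz : n * (n⁻¹ * z * n) * n⁻¹ = z := by group
        refine ⟨hI, W₁, U', W₂, hP, m * n, M.mul_mem hm hnM, n⁻¹ * z * n, ?_, ?_, ?_,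
          by group⟩
        · rw [hn3, hzz]; exact hz
        · intro h
          rw [hn1, hzz] at h
          exact hz' (Or.inl h)
        · intro h
          rw [hn2, hzz] at h
          exact hz' (Or.inr h)
    have hsub : Cfsg.sigmaA M U ⊆ Cfsg.sigmaA0 M K := by
      rintro a ⟨haH, haN⟩
      refine ⟨haH, ?_⟩
      rintro ⟨k, hk, hk1, m, hm, rfl⟩
      have hnorm := (h1352 M hM K hKU.cyclic hKU.hall).2 U hKU (M.inv_mem hm)
      have h1 := (Subgroup.mem_normalizer_iff.mp hnorm (m * k * m⁻¹)).mp haN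
      have h2 : m⁻¹ * (m * k * m⁻¹) * m⁻¹⁻¹ = k := by group
      rw [h2] at h1
      have hcompl := Cfsg.Agent.Lib.Helper47.BG.sigmaDecomposition_complIn M K U hKU
      have : k ∈ (U ⊔ Cfsg.sigmaCore M) ⊓ K := Subgroup.mem_inf.mpr ⟨h1, hk⟩
      rw [hcompl.2.2.1, Subgroup.mem_bot] at this
      exact hk1 this
    have h1mem : (1 : G) ∈ Cfsg.sigmaA M U := by
      have h55 := h1355 M hM
      obtain ⟨y, hy, hy1⟩ : ∃ y ∈ Cfsg.fittingHallOf M, y ≠ 1 := by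
        by_contra hcon
        push_neg at hcon
        exact h55.1 ((Subgroup.eq_bot_iff_forall _).mpr hcon)
      exact ⟨⟨M.one_mem, y, h55.2.1 hy, hy1, by rw [one_mul, mul_one]⟩, Subgroup.one_mem _⟩
    unfold Cfsg.typeA0
    rw [hsecond, hTR2]
    ext a
    simp only [Set.mem_union, Set.mem_diff, Set.mem_singleton_iff]
    constructor
    · rintro (⟨ha, ha1⟩ | ⟨ha, hna⟩)
      · exact ⟨hsub ha, ha1⟩
      · exact ⟨ha, fun h => hna (h ▸ h1mem)⟩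
    · rintro ⟨ha, ha1⟩
      by_cases haA : a ∈ Cfsg.sigmaA M U
      · exact Or.inl ⟨haA, ha1⟩
      · exact Or.inr ⟨ha, haA⟩

end Cfsg.Agent.Lib.Helper85.BG
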