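import Mathlib
import Cfsg.Statements.S1350
import Cfsg.Statements.S1375
import Cfsg.Statements.S1378
import Cfsg.Statements.S1404
import Cfsg.Statements.S1425
import Cfsg.Statements.S1430
import Cfsg.Statements.S1432
import Cfsg.Statements.S1433
import Cfsg.Agent.Lib.Helper85.BG.Conj
import Cfsg.Agent.Lib.Helper27.BG.S1433Core
import Cfsg.Agent.Lib.Helper1.SZInternal
import Cfsg.Agent.Lib.Helper23.Compl

/-!
Bender–Glauberman: towards S1379 (the partition of the non-identity elements).  Part A: the sets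
`M̃ = tildeOf M (M_σ \ {1})`, conjugation, and the covering argument (helper85).
-/

set_option autoImplicit false

namespace Cfsg.Agent.Lib.Helper85.BG

open Cfsg Cfsg.Agent.Lib.Helper35.BG Cfsg.Agent.Lib.Helper67.BG Cfsg.Agent.Lib.Helper27.BG

variable {G : Type*} [Group G] [Finite G]

/-! ### basic facts on `tildeOf` and `supportR` -/

theorem mem_tilde_self {M : Subgroup G} {x : G} (hx : x ∈ sigmaCore M) (hx1 : x ≠ 1) :
    x ∈ tildeOf M ((sigmaCore M : Set G) \ {1}) :=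
  ⟨x, ⟨hx, hx1⟩, 1, Subgroup.one_mem _, 1, by simp⟩

theorem mem_tilde_of_mem_supportR {M : Subgroup G} {x r : G} (hx : x ∈ sigmaCore M) (hx1 : x ≠ 1)
    (hr : r ∈ supportR M x) : x * r ∈ tildeOf M ((sigmaCore M : Set G) \ {1}) :=
  ⟨x, ⟨hx, hx1⟩, r, hr, 1, by simp⟩

theorem conj_mem_tilde {M : Subgroup G} {A : Set G} {g : G} (hg : g ∈ tildeOf M A) (c : G) :
    c * g * c⁻¹ ∈ tildeOf M A := by
  obtain ⟨a, ha, r, hr, y, rfl⟩ := hg
  exact ⟨a, ha, r, hr, c * y, by group⟩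

theorem mem_tilde_of_conj {M : Subgroup G} {A : Set G} {g c : G}
    (hg : c * g * c⁻¹ ∈ tildeOf M A) : g ∈ tildeOf M A := by
  have := conj_mem_tilde hg c⁻¹
  have e : c⁻¹ * (c * g * c⁻¹) * c⁻¹⁻¹ = g := by group
  rwa [e] at this

theorem supportR_eq_of_unique {M N : Subgroup G} {x : G}
    (hxM : ¬ Subgroup.centralizer ({x} : Set G) ≤ M) (hN : IsCoatom N)
    (hxN : Subgroup.centralizer ({x} : Set G) ≤ N)
    (huniq : ∀ L : Subgroup G, IsCoatom L → Subgroup.centralizer ({x} : Set G) ≤ L → L = N) :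
    supportR M x = fittingHallOf N ⊓ Subgroup.centralizer ({x} : Set G) := by
  have h : ¬ Subgroup.centralizer ({x} : Set G) ≤ M ∧
      ∃! L : Subgroup G, IsCoatom L ∧ Subgroup.centralizer ({x} : Set G) ≤ L :=
    ⟨hxM, N, ⟨hN, hxN⟩, fun L hL => huniq L hL.1 hL.2⟩
  unfold supportR
  rw [dif_pos h]
  have := Classical.choose_spec h.2.exists
  rw [huniq _ this.1 this.2]

theorem supportR_eq_bot {M : Subgroup G} {x : G}
    (hxM : Subgroup.centralizer ({x} : Set G) ≤ M) : supportR M x = ⊥ := by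
  unfold supportR
  rw [dif_neg]
  exact fun h => h.1 hxM

theorem unique_coatom_conj {x : G} {M : Subgroup G}
    (huniq : ∀ L' : Subgroup G, IsCoatom L' → Subgroup.centralizer ({x} : Set G) ≤ L' → L' = M)
    (d : G) : ∀ L' : Subgroup G, IsCoatom L' →
      Subgroup.centralizer ({d * x * d⁻¹} : Set G) ≤ L' →
      L' = M.map (MulAut.conj d).toMonoidHom := by
  intro L' hL' hC
  have h1 : Subgroup.centralizer ({x} : Set G) ≤ L'.map (MulAut.conj d⁻¹).toMonoidHom :=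
    centralizer_conj_le' d (by rwa [map_conj_map_conj_inv])
  have h2 := huniq _ (isCoatom_map_conj hL' d⁻¹) h1
  rw [← h2, map_conj_map_conj_inv]

theorem self_mem_centralizer_singleton (x : G) : x ∈ Subgroup.centralizer ({x} : Set G) :=
  Subgroup.mem_centralizer_singleton_iff.mpr rfl

theorem mem_centralizer_singleton_of_commute {x c : G} (h : Commute x c) :
    c ∈ Subgroup.centralizer ({x} : Set G) :=
  Subgroup.mem_centralizer_singleton_iff.mpr h.symm.eq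

theorem exists_prime_dvd_orderOf {x : G} (hx : x ≠ 1) : ∃ q : ℕ, q.Prime ∧ q ∣ orderOf x :=
  Nat.exists_prime_and_dvd (fun h => hx (orderOf_eq_one_iff.mp h))

/-- `R(x)` is conjugation-equivariant on `M_σ^#`. -/
theorem conj_mem_supportR (hG : Cfsg.IsMinSimpleOddOrder G)
    (h1375 : type_of% (@Cfsg.CfsgFrozen.S1375 G _ _ hG))
    {N : Subgroup G} (hN : IsCoatom N) {b s : G} (hb : b ∈ sigmaCore N) (hb1 : b ≠ 1)
    (hs : s ∈ supportR N b) (e : G) :
    e * s * e⁻¹ ∈ supportR (N.map (MulAut.conj e).toMonoidHom) (e * b * e⁻¹) := by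
  by_cases hC : Subgroup.centralizer ({b} : Set G) ≤ N
  · rw [supportR_eq_bot hC, Subgroup.mem_bot] at hs
    rw [hs]
    simp
  · obtain ⟨L, ⟨hL, hbL⟩, hLuniq, hσF, -, -, -, -⟩ := h1375 N hN b hb hb1 hC
    rw [supportR_eq_of_unique hC hL hbL hLuniq, ← hσF] at hs
    have hN₁ := isCoatom_map_conj hN e
    have hb₁ := conj_mem_sigmaCore_map hb e
    have hC₁ : ¬ Subgroup.centralizer ({e * b * e⁻¹} : Set G) ≤
        N.map (MulAut.conj e).toMonoidHom := fun h => hC (centralizer_conj_le' e h)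
    obtain ⟨L₁, ⟨hL₁, hbL₁⟩, hL₁uniq, hσF₁, -, -, -, -⟩ :=
      h1375 _ hN₁ (e * b * e⁻¹) hb₁ (conj_ne_one hb1) hC₁
    have hL₁eq : L₁ = L.map (MulAut.conj e).toMonoidHom :=
      unique_coatom_conj hLuniq e L₁ hL₁ hbL₁
    rw [supportR_eq_of_unique hC₁ hL₁ hbL₁ hL₁uniq, ← hσF₁, hL₁eq]
    exact ⟨conj_mem_sigmaCore_map hs.1 e, conj_mem_centralizer_conj hs.2 e⟩

/-! ### the swap in the `τ₂` case -/

theorem tau2_swap (hG : Cfsg.IsMinSimpleOddOrder G)
    (h1375 : type_of% (@Cfsg.CfsgFrozen.S1375 G _ _ hG))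
    (h1425 : type_of% (@Cfsg.CfsgFrozen.S1425 G _ _ hG))
    {M : Subgroup G} (hM : IsCoatom M) {x x' : G} (hx : x ∈ sigmaCore M)
    (hcomm : Commute x x') (hx'1 : x' ≠ 1)
    (hτ : ∀ p : ℕ, p.Prime → p ∣ orderOf x' → p ∈ tau2 M)
    {L : Subgroup G} (hL : IsCoatom L) (hσL : ∀ p : ℕ, p.Prime → p ∣ orderOf x' → p ∈ sigma L)
    (hC : Subgroup.centralizer ({x'} : Set G) ≤ M)
    (huniq : ∀ L' : Subgroup G, IsCoatom L' → Subgroup.centralizer ({x'} : Set G) ≤ L' → L' = M) :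
    x * x' ∈ tildeOf L ((sigmaCore L : Set G) \ {1}) := by
  have hY1 : Subgroup.zpowers x' ≠ ⊥ := Subgroup.zpowers_ne_bot.mpr hx'1
  have hY : ∀ p : ℕ, p.Prime → p ∣ Nat.card (Subgroup.zpowers x') → p ∈ sigma L := by
    intro p hp hdvd
    rw [Nat.card_zpowers] at hdvd
    exact hσL p hp hdvd
  obtain ⟨d, hd⟩ := h1425 L hL _ hY1 hY
  have hyL : d * x' * d⁻¹ ∈ sigmaCore L := hd (conj_mem_map_conj d (Subgroup.mem_zpowers x'))
  have hy1 : d * x' * d⁻¹ ≠ 1 := conj_ne_one hx'1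
  have hM1 := isCoatom_map_conj hM d
  have hCM1 := centralizer_conj_le d hC
  have huniq1 := unique_coatom_conj huniq d
  obtain ⟨q, hq, hqdvd⟩ := exists_prime_dvd_orderOf hx'1
  have hne : M.map (MulAut.conj d).toMonoidHom ≠ L := by
    intro h
    have h1 : q ∈ sigma M := by
      have := hσL q hq hqdvd
      rwa [← h, sigma_map_conj] at this
    exact (hτ q hq hqdvd).2.1 h1
  have hnotL : ¬ Subgroup.centralizer ({d * x' * d⁻¹} : Set G) ≤ L :=
    fun h => hne (huniq1 L hL h).symm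
  obtain ⟨N, ⟨hN, hyN⟩, hNuniq, hσF, -, -, -, -⟩ := h1375 L hL _ hyL hy1 hnotL
  have hNeq : M.map (MulAut.conj d).toMonoidHom = N := hNuniq _ hM1 hCM1
  have hw : d * x * d⁻¹ ∈ supportR L (d * x' * d⁻¹) := by
    rw [supportR_eq_of_unique hnotL hN hyN hNuniq, ← hσF, ← hNeq]
    exact ⟨conj_mem_sigmaCore_map hx d,
      mem_centralizer_singleton_of_commute (conj_commute hcomm.symm d)⟩
  have h1 := mem_tilde_of_mem_supportR hyL hy1 hw
  apply mem_tilde_of_conj (c := d)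
  have e : d * (x * x') * d⁻¹ = d * x' * d⁻¹ * (d * x * d⁻¹) := by
    rw [hcomm.eq]; group
  rw [e]
  exact h1

/-! ### the exceptional alternative -/

/-- The exceptional alternative of the covering: `g` is conjugate to `s * k` with `k ≠ 1` in a
Hall `κ(H)`-subgroup `KH` of a maximal subgroup `H` and `s ≠ 1` in `C_{H_σ}(KH)`. -/
def KappaAlt (g : G) : Prop :=
  ∃ (H KH : Subgroup G) (k s d : G), IsCoatom H ∧ IsPiHallOf (kappa H) KH H ∧ k ∈ KH ∧ k ≠ 1 ∧
    s ∈ sigmaCore H ⊓ Subgroup.centralizer (KH : Set G) ∧ s ≠ 1 ∧ g = d * (s * k) * d⁻¹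

theorem kappaAlt_of_conj {g c : G} (h : KappaAlt (c * g * c⁻¹)) : KappaAlt g := by
  obtain ⟨H, KH, k, s, d, hH, hKH, hk, hk1, hs, hs1, hg⟩ := h
  refine ⟨H, KH, k, s, c⁻¹ * d, hH, hKH, hk, hk1, hs, hs1, ?_⟩
  have : g = c⁻¹ * (c * g * c⁻¹) * c := by group
  rw [this, hg]; group

/-- The case where `x'` lies in `M`: either `C_G(x) ≤ M` and the exceptional alternative holds,
or `x x'` lies in some `Ñ`. -/
theorem cover_in_M (hG : Cfsg.IsMinSimpleOddOrder G)
    (h1375 : type_of% (@Cfsg.CfsgFrozen.S1375 G _ _ hG))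
    (h1425 : type_of% (@Cfsg.CfsgFrozen.S1425 G _ _ hG))
    (h1430 : type_of% (@Cfsg.CfsgFrozen.S1430 G _ _ hG))
    (h1432 : type_of% (@Cfsg.CfsgFrozen.S1432 G _ _ hG))
    {M : Subgroup G} (hM : IsCoatom M) {x x' : G} (hx : x ∈ sigmaCore M) (hx1 : x ≠ 1)
    (hcomm : Commute x x') (hx'M : x' ∈ M) (hx'1 : x' ≠ 1)
    (hx' : ∀ p : ℕ, p.Prime → p ∣ orderOf x' → p ∉ sigma M) :
    (Subgroup.centralizer ({x} : Set G) ≤ M ∧ KappaAlt (x * x')) ∨
      ∃ N : Subgroup G, IsCoatom N ∧ x * x' ∈ tildeOf N ((sigmaCore N : Set G) \ {1}) := by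
  have hmem : x' ∈ M ⊓ Subgroup.centralizer ({x} : Set G) :=
    ⟨hx'M, mem_centralizer_singleton_of_commute hcomm⟩
  rcases h1432 M hM x hx hx1 x' hmem hx'1 hx' with ⟨hκ, hC⟩ | ⟨hτ, ⟨L, hL, hσL⟩, hC', huniq⟩
  · left
    refine ⟨hC, ?_⟩
    have hsolv : Group.IsSolvable M := isSolvable_of_ne_top hG hM.1
    obtain ⟨KH, hKH, hle⟩ := exists_piHallOf_ge (kappa M) M hsolv (Subgroup.zpowers x')
      (by rw [Subgroup.zpowers_le]; exact hx'M)
      (by intro p hp hdvd; rw [Nat.card_zpowers] at hdvd; exact hκ p hp hdvd)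
    have hx'K : x' ∈ KH := hle (Subgroup.mem_zpowers x')
    have hKH1 : KH ≠ ⊥ := by
      intro h
      rw [h, Subgroup.mem_bot] at hx'K
      exact hx'1 hx'K
    have h1 := (h1430 M hM KH hKH hKH1).1 x' hx'K hx'1
    have hxs : x ∈ sigmaCore M ⊓ Subgroup.centralizer (KH : Set G) := by
      rw [← h1]
      exact ⟨hx, mem_centralizer_singleton_of_commute hcomm.symm⟩
    exact ⟨M, KH, x', x, 1, hM, hKH, hx'K, hx'1, hxs, hx1, by simp⟩
  · right
    exact ⟨L, hL, tau2_swap hG h1375 h1425 hM hx hcomm hx'1 hτ hL hσL hC' huniq⟩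

end Cfsg.Agent.Lib.Helper85.BG
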