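import Mathlib
import Cfsg.Agent.Lib.Helper85.BG.S1379A

/-!
Bender–Glauberman: towards S1379.  Part B: the covering of the non-identity elements by the sets
`M̃` and the exceptional alternative (helper85).
-/

set_option autoImplicit false

namespace Cfsg.Agent.Lib.Helper85.BG

open Cfsg Cfsg.Agent.Lib.Helper35.BG Cfsg.Agent.Lib.Helper67.BG Cfsg.Agent.Lib.Helper27.BG
open Pointwise

/-- Schur–Zassenhaus: an element of `C = A₀ R` (`R` normal in `C`, solvable) of order prime to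
`|R|` is conjugate under `R` into the complement `A₀`. -/
theorem sz_conj_into_compl {G : Type*} [Group G] [Finite G] {C A₀ R : Subgroup G}
    (hcompl : IsComplIn A₀ R C)
    (hnorm : C ≤ Subgroup.normalizer (R : Set G)) (hsolv : Group.IsSolvable R)
    {v : G} (hvC : v ∈ C) (hcop : (orderOf v).Coprime (Nat.card R)) :
    ∃ n ∈ R, n * v * n⁻¹ ∈ A₀ := by
  set V : Subgroup G := Subgroup.zpowers v with hV
  have hVC : V ≤ C := by rw [hV, Subgroup.zpowers_le]; exact hvC
  have hVnorm : V ≤ Subgroup.normalizer (R : Set G) := hVC.trans hnorm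
  have hcopV : (Nat.card V).Coprime (Nat.card R) := by rw [hV, Nat.card_zpowers]; exact hcop
  have hRC : R ≤ C := hcompl.2.1
  have hRVC : R ⊔ V ≤ C := sup_le hRC hVC
  have hcomplA : IsComplIn ((R ⊔ V) ⊓ A₀) R (R ⊔ V) := by
    refine ⟨inf_le_left, le_sup_left, ?_, ?_⟩
    · rw [eq_bot_iff]
      intro y hy
      have : y ∈ A₀ ⊓ R := ⟨hy.1.2, hy.2⟩
      rwa [hcompl.2.2.1] at this
    · intro m hm
      obtain ⟨a, ha, b, hb, rfl⟩ := hcompl.2.2.2 m (hRVC hm)
      refine ⟨a, ⟨?_, ha⟩, b, hb, rfl⟩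
      have : a = (a * b) * b⁻¹ := by group
      rw [this]
      exact Subgroup.mul_mem _ hm (Subgroup.mem_sup_left (R.inv_mem hb))
  have hcard1 := Cfsg.Agent.Lib.Helper23.card_of_isComplIn hcomplA
  have hcard2 := Cfsg.Agent.Lib.Helper1.card_sup_of_normalizer_coprime R V hVnorm hcopV
  have hcardA : Nat.card ((R ⊔ V) ⊓ A₀ : Subgroup G) = Nat.card V := by
    have hpos : 0 < Nat.card R := Nat.card_pos
    apply Nat.eq_of_mul_eq_mul_right hpos
    rw [← hcard1, hcard2, mul_comm]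
  have hAnorm : (R ⊔ V) ⊓ A₀ ≤ Subgroup.normalizer (R : Set G) :=
    (inf_le_left.trans hRVC).trans hnorm
  have hVle : V ≤ R ⊔ ((R ⊔ V) ⊓ A₀) := by
    intro m hm
    obtain ⟨a, ha, b, hb, rfl⟩ := hcomplA.2.2.2 m (Subgroup.mem_sup_right hm)
    exact Subgroup.mul_mem _ (Subgroup.mem_sup_right ha) (Subgroup.mem_sup_left hb)
  obtain ⟨n, hn, hconj⟩ := Cfsg.Agent.Lib.Helper1.sz_conj_internal R ((R ⊔ V) ⊓ A₀) V hAnorm
    (hcardA ▸ hcopV) (Or.inr hsolv) hVle hcardA.symm
  refine ⟨n, hn, ?_⟩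
  have h1 : n * v * n⁻¹ ∈ MulAut.conj n • V := by
    rw [Cfsg.Agent.Lib.Helper1.mem_conj_smul]
    have : n⁻¹ * (n * v * n⁻¹) * n = v := by group
    rw [this]
    exact Subgroup.mem_zpowers v
  rw [hconj] at h1
  exact h1.2

variable {G : Type*} [Group G] [Finite G]

/-- The covering, after conjugating the `σ(M)`-part of the element into `M_σ`. -/
theorem cover_aux (hG : Cfsg.IsMinSimpleOddOrder G)
    (h1350 : type_of% (@Cfsg.CfsgFrozen.S1350 G _ _ hG))
    (h1375 : type_of% (@Cfsg.CfsgFrozen.S1375 G _ _ hG))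
    (h1378 : type_of% (@Cfsg.CfsgFrozen.S1378 G _ _ hG))
    (h1404 : type_of% (@Cfsg.CfsgFrozen.S1404 G _ _ hG))
    (h1425 : type_of% (@Cfsg.CfsgFrozen.S1425 G _ _ hG))
    (h1430 : type_of% (@Cfsg.CfsgFrozen.S1430 G _ _ hG))
    (h1432 : type_of% (@Cfsg.CfsgFrozen.S1432 G _ _ hG))
    {M : Subgroup G} (hM : IsCoatom M) {x x' : G} (hx : x ∈ sigmaCore M) (hx1 : x ≠ 1)
    (hcomm : Commute x x') (hx' : ∀ p : ℕ, p.Prime → p ∣ orderOf x' → p ∉ sigma M) :
    (∃ N : Subgroup G, IsCoatom N ∧ x * x' ∈ tildeOf N ((sigmaCore N : Set G) \ {1})) ∨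
      KappaAlt (x * x') := by
  by_cases hx'1 : x' = 1
  · left
    refine ⟨M, hM, ?_⟩
    rw [hx'1, mul_one]
    exact mem_tilde_self hx hx1
  by_cases hC : Subgroup.centralizer ({x} : Set G) ≤ M
  · have hx'M : x' ∈ M := hC (mem_centralizer_singleton_of_commute hcomm)
    rcases cover_in_M hG h1375 h1425 h1430 h1432 hM hx hx1 hcomm hx'M hx'1 hx' with ⟨-, h⟩ | h
    · exact Or.inr h
    · exact Or.inl h
  left
  obtain ⟨N, ⟨hN, hxN⟩, hNuniq, hσF, hRnorm, hcomplC, hcomplN, -⟩ := h1375 M hM x hx hx1 hC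
  have hsupp : supportR M x = sigmaCore N ⊓ Subgroup.centralizer ({x} : Set G) := by
    rw [supportR_eq_of_unique hC hN hxN hNuniq, ← hσF]
  obtain ⟨u, v, huv, hu, hv, huσ, hvσ⟩ := exists_pi_decomp (sigma N) x'
  have hcu : Commute x u := by
    obtain ⟨i, rfl⟩ := Subgroup.mem_zpowers_iff.mp hu
    exact hcomm.zpow_right i
  have hcv : Commute x v := by
    obtain ⟨i, rfl⟩ := Subgroup.mem_zpowers_iff.mp hv
    exact hcomm.zpow_right i
  have huv_comm : Commute u v := by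
    obtain ⟨i, rfl⟩ := Subgroup.mem_zpowers_iff.mp hu
    obtain ⟨j, rfl⟩ := Subgroup.mem_zpowers_iff.mp hv
    exact (Commute.refl x').zpow_zpow i j
  have hou : orderOf u ∣ orderOf x' := orderOf_dvd_of_mem_zpowers hu
  have hov : orderOf v ∣ orderOf x' := orderOf_dvd_of_mem_zpowers hv
  have huN : u ∈ N := hxN (mem_centralizer_singleton_of_commute hcu)
  have hvN : v ∈ N := hxN (mem_centralizer_singleton_of_commute hcv)
  have hxNmem : x ∈ N := hxN (self_mem_centralizer_singleton x)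
  have hxMmem : x ∈ M := sigmaCore_le M hx
  have huσN : u ∈ sigmaCore N := mem_sigmaCore_of_primes (h1350 N hN).1 huN huσ
  have huR : u ∈ supportR M x := by
    rw [hsupp]; exact ⟨huσN, mem_centralizer_singleton_of_commute hcu⟩
  by_cases hv1 : v = 1
  · refine ⟨M, hM, ?_⟩
    rw [huv, hv1, mul_one]
    exact mem_tilde_of_mem_supportR hx hx1 huR
  -- from now on `v ≠ 1`
  have hxσN : ∀ q : ℕ, q.Prime → q ∣ orderOf x → q ∉ sigma N := by
    intro q hq hdvd hqN
    have hqM := prime_mem_sigma_of_mem_sigmaCore hx hq hdvd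
    obtain ⟨h, hh⟩ := h1378.2 M N hM hN ⟨q, hqM, hqN⟩
    have hσ : sigma N = sigma M := by rw [hh, sigma_map_conj]
    have hxσ : x ∈ sigmaCore N :=
      mem_sigmaCore_of_primes (h1350 N hN).1 hxNmem
        (fun p hp hd => hσ ▸ prime_mem_sigma_of_mem_sigmaCore hx hp hd)
    have hbot : x ∈ (M ⊓ N) ⊓ sigmaCore N := ⟨⟨hxMmem, hxNmem⟩, hxσ⟩
    rw [hcomplN.2.2.1] at hbot
    exact hx1 (Subgroup.mem_bot.mp hbot)
  have hcop : (orderOf x).Coprime (orderOf v) := by
    apply Nat.coprime_of_dvd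
    intro q hq h1 h2
    exact hx' q hq (h2.trans hov) (prime_mem_sigma_of_mem_sigmaCore hx hq h1)
  have hx_in : x ∈ Subgroup.zpowers (x * v) := mem_zpowers_mul_of_coprime hcv hcop
  have hv_in : v ∈ Subgroup.zpowers (x * v) := mem_zpowers_mul_of_coprime' hcv hcop
  have hu1 : u = 1 := by
    by_contra hu1
    have hxv1 : x * v ≠ 1 := by
      intro h
      rw [h, Subgroup.zpowers_one_eq_bot, Subgroup.mem_bot] at hx_in
      exact hx1 hx_in
    have hxvmem : x * v ∈ N ⊓ Subgroup.centralizer ({u} : Set G) :=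
      ⟨N.mul_mem hxNmem hvN,
        mem_centralizer_singleton_of_commute (hcu.symm.mul_right huv_comm)⟩
    have hxvσ : ∀ q : ℕ, q.Prime → q ∣ orderOf (x * v) → q ∉ sigma N := by
      intro q hq hdvd
      have h1 : q ∣ orderOf x * orderOf v :=
        (hdvd.trans hcv.orderOf_mul_dvd_lcm).trans (Nat.lcm_dvd_mul _ _)
      rcases (Nat.Prime.dvd_mul hq).mp h1 with h | h
      · exact hxσN q hq h
      · exact hvσ q hq h
    obtain ⟨q, hq, hqx⟩ := exists_prime_dvd_orderOf hx1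
    have hqxv : q ∣ orderOf (x * v) := hqx.trans (orderOf_dvd_of_mem_zpowers hx_in)
    have hqM := prime_mem_sigma_of_mem_sigmaCore hx hq hqx
    rcases h1432 N hN u huσN hu1 (x * v) hxvmem hxv1 hxvσ with ⟨hκ, -⟩ | ⟨-, ⟨L, hL, hσL⟩, -⟩
    · -- the `κ` case
      have hqκ : q ∈ kappa N := hκ q hq hqxv
      haveI : Fact q.Prime := ⟨hq⟩
      obtain ⟨x₀, hx₀⟩ : ∃ x₀ : G, x₀ = x ^ (orderOf x / q) := ⟨_, rfl⟩
      have hx₀o : orderOf x₀ = q := by
        rw [hx₀]; exact orderOf_pow_orderOf_div (orderOf_pos x).ne' hqx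
      obtain ⟨X, hX⟩ : ∃ X : Subgroup G, X = Subgroup.zpowers x₀ := ⟨_, rfl⟩
      have hXcard : Nat.card X = q := by rw [hX, Nat.card_zpowers, hx₀o]
      have hX1 : X ≠ ⊥ := by
        intro h
        rw [h, Subgroup.card_bot] at hXcard
        exact hq.one_lt.ne hXcard
      have hx₀N : x₀ ∈ N := by rw [hx₀]; exact N.pow_mem hxNmem _
      have hx₀M : x₀ ∈ M := by rw [hx₀]; exact M.pow_mem hxMmem _
      have hXN : X ≤ N := by rw [hX, Subgroup.zpowers_le]; exact hx₀N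
      have hXM : X ≤ M := by rw [hX, Subgroup.zpowers_le]; exact hx₀M
      have hsolv : Group.IsSolvable N := isSolvable_of_ne_top hG hN.1
      obtain ⟨KN, hKN, hXKN⟩ := exists_piHallOf_ge (kappa N) N hsolv X hXN
        (by
          intro p hp hdvd
          rw [hXcard] at hdvd
          rwa [(Nat.prime_dvd_prime_iff_eq hp hq).mp hdvd])
      have hKN1 : KN ≠ ⊥ := fun h => hX1 (le_bot_iff.mp (h ▸ hXKN))
      have hXtop : X ≠ ⊤ := fun h => hN.1 (top_le_iff.mp (h ▸ hXN))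
      obtain ⟨H, hH, hXH⟩ := exists_coatom_ge (normalizer_ne_top hG hX1 hXtop)
      have hXσH : X ≤ sigmaCore H :=
        ((h1430 N hN KN hKN hKN1).2.2 X hXKN (by rw [hXcard]; exact hq)).2.2 H hH hXH
      have hqH : q ∈ sigma H := sigmaCore_isPi H q hq (by
        rw [← hXcard]; exact Subgroup.card_dvd_of_le hXσH)
      obtain ⟨h, hh⟩ := h1378.2 M H hM hH ⟨q, hqM, hqH⟩
      have hXH' : X ≤ H := Subgroup.le_normalizer.trans hXH
      have hXconj : X.map (MulAut.conj h⁻¹).toMonoidHom ≤ M := by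
        have := Subgroup.map_mono (f := (MulAut.conj h⁻¹).toMonoidHom) hXH'
        rwa [hh, map_conj_inv_map_conj] at this
      have hXp : IsPGroup q X := IsPGroup.of_card (n := 1) (by rw [hXcard, pow_one])
      obtain ⟨m, hm, c, hc, hmc⟩ := (h1404 M hM q hqM X hXp hX1 hXM).1 h⁻¹ hXconj
      have hcH : c ∈ H := hXH (centralizer_le_normalizer' X hc)
      have hMH : M = H := by
        have hheq : h = c⁻¹ * m⁻¹ := by
          have : h = (h⁻¹)⁻¹ := by group
          rw [this, hmc]; group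
        have h1 : H = M.map (MulAut.conj c⁻¹).toMonoidHom := by
          rw [hh, hheq, ← map_conj_mul, map_conj_eq_self_of_mem (M.inv_mem hm)]
        have h2 : H.map (MulAut.conj c).toMonoidHom = M := by
          rw [h1, map_conj_map_conj_inv]
        rw [← h2, map_conj_eq_self_of_mem hcH]
      apply hC
      intro c' hc'
      rw [hMH]
      apply hXH
      apply centralizer_le_normalizer' X
      have hcc : Commute c' x := Subgroup.mem_centralizer_singleton_iff.mp hc'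
      have hcc' : c' * x₀ = x₀ * c' := by
        rw [hx₀]; exact (hcc.pow_right _).eq
      rw [hX]
      exact mem_centralizer_zpowers hcc'
    · -- the `τ₂` case
      obtain ⟨h, hh⟩ := h1378.2 M L hM hL ⟨q, hqM, hσL q hq hqxv⟩
      have hσ : sigma L = sigma M := by rw [hh, sigma_map_conj]
      obtain ⟨q', hq', hq'v⟩ := exists_prime_dvd_orderOf hv1
      have h1 : q' ∈ sigma L := hσL q' hq' (hq'v.trans (orderOf_dvd_of_mem_zpowers hv_in))
      rw [hσ] at h1
      exact hx' q' hq' (hq'v.trans hov) h1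
  have hx'v : x' = v := by rw [huv, hu1, one_mul]
  have hx'σN : ∀ q : ℕ, q.Prime → q ∣ orderOf x' → q ∉ sigma N := by
    intro q hq hdvd
    rw [hx'v] at hdvd
    exact hvσ q hq hdvd
  -- Schur–Zassenhaus: conjugate `x'` into `M ∩ C(x)` by an element of `R(x)`
  have hx'C : x' ∈ Subgroup.centralizer ({x} : Set G) := mem_centralizer_singleton_of_commute hcomm
  have hRsolv : Group.IsSolvable ↥(sigmaCore N ⊓ Subgroup.centralizer ({x} : Set G)) :=
    Cfsg.Agent.Lib.Helper1.isSolvable_of_le (inf_le_left.trans (sigmaCore_le N))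
      (isSolvable_of_ne_top hG hN.1)
  have hcopR : (orderOf x').Coprime
      (Nat.card ↥(sigmaCore N ⊓ Subgroup.centralizer ({x} : Set G))) := by
    apply Nat.coprime_of_dvd
    intro q hq h1 h2
    exact hx'σN q hq h1 (sigmaCore_isPi N q hq (h2.trans (Subgroup.card_dvd_of_le inf_le_left)))
  obtain ⟨n, hnR, hnx'⟩ := sz_conj_into_compl hcomplC hRnorm hRsolv hx'C hcopR
  have hnx : n * x * n⁻¹ = x := by
    have := Subgroup.mem_centralizer_singleton_iff.mp hnR.2
    rw [this]; group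
  have hcomm₂ : Commute x (n * x' * n⁻¹) := by
    have := conj_commute hcomm n
    rwa [hnx] at this
  have hx₂'1 : n * x' * n⁻¹ ≠ 1 := conj_ne_one hx'1
  have hx₂' : ∀ p : ℕ, p.Prime → p ∣ orderOf (n * x' * n⁻¹) → p ∉ sigma M := by
    intro p hp hdvd
    rw [orderOf_conj] at hdvd
    exact hx' p hp hdvd
  rcases cover_in_M hG h1375 h1425 h1430 h1432 hM hx hx1 hcomm₂ hnx'.1 hx₂'1 hx₂' with
    ⟨hCM, -⟩ | ⟨N', hN', hmem⟩
  · exact absurd hCM hC
  · refine ⟨N', hN', ?_⟩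
    apply mem_tilde_of_conj (c := n)
    have e : n * (x * x') * n⁻¹ = x * (n * x' * n⁻¹) := by
      calc n * (x * x') * n⁻¹ = (n * x * n⁻¹) * (n * x' * n⁻¹) := by group
        _ = x * (n * x' * n⁻¹) := by rw [hnx]
    rw [e]
    exact hmem

/-- Every non-identity element lies in some `Ñ` or satisfies the exceptional alternative. -/
theorem cover_main (hG : Cfsg.IsMinSimpleOddOrder G)
    (h1350 : type_of% (@Cfsg.CfsgFrozen.S1350 G _ _ hG))
    (h1375 : type_of% (@Cfsg.CfsgFrozen.S1375 G _ _ hG))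
    (h1378 : type_of% (@Cfsg.CfsgFrozen.S1378 G _ _ hG))
    (h1404 : type_of% (@Cfsg.CfsgFrozen.S1404 G _ _ hG))
    (h1425 : type_of% (@Cfsg.CfsgFrozen.S1425 G _ _ hG))
    (h1430 : type_of% (@Cfsg.CfsgFrozen.S1430 G _ _ hG))
    (h1432 : type_of% (@Cfsg.CfsgFrozen.S1432 G _ _ hG))
    {g : G} (hg : g ≠ 1) :
    (∃ N : Subgroup G, IsCoatom N ∧ g ∈ tildeOf N ((sigmaCore N : Set G) \ {1})) ∨
      KappaAlt g := by
  obtain ⟨p, hp, hpg⟩ := exists_prime_dvd_orderOf hg
  obtain ⟨M, hM, hpM⟩ := h1378.1 p hp (hpg.trans (orderOf_dvd_natCard g))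
  obtain ⟨x, x', hxx', hxz, hx'z, hxσ, hx'σ⟩ := exists_pi_decomp (sigma M) g
  have hcomm : Commute x x' := by
    obtain ⟨i, rfl⟩ := Subgroup.mem_zpowers_iff.mp hxz
    obtain ⟨j, rfl⟩ := Subgroup.mem_zpowers_iff.mp hx'z
    exact (Commute.refl g).zpow_zpow i j
  have hx1 : x ≠ 1 := by
    intro h
    rw [h, one_mul] at hxx'
    rw [hxx'] at hpg
    exact hx'σ p hp hpg hpM
  have hY1 : Subgroup.zpowers x ≠ ⊥ := Subgroup.zpowers_ne_bot.mpr hx1
  have hY : ∀ q : ℕ, q.Prime → q ∣ Nat.card (Subgroup.zpowers x) → q ∈ sigma M := by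
    intro q hq hdvd
    rw [Nat.card_zpowers] at hdvd
    exact hxσ q hq hdvd
  obtain ⟨c, hc⟩ := h1425 M hM _ hY1 hY
  have hx₁ : c * x * c⁻¹ ∈ sigmaCore M := hc (conj_mem_map_conj c (Subgroup.mem_zpowers x))
  have hx₁' : ∀ q : ℕ, q.Prime → q ∣ orderOf (c * x' * c⁻¹) → q ∉ sigma M := by
    intro q hq hdvd
    rw [orderOf_conj] at hdvd
    exact hx'σ q hq hdvd
  have e : c * g * c⁻¹ = c * x * c⁻¹ * (c * x' * c⁻¹) := by rw [hxx']; group
  rcases cover_aux hG h1350 h1375 h1378 h1404 h1425 h1430 h1432 hM hx₁ (conj_ne_one hx1)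
    (conj_commute hcomm c) hx₁' with ⟨N, hN, hmem⟩ | h
  · left
    refine ⟨N, hN, ?_⟩
    apply mem_tilde_of_conj (c := c)
    rw [e]; exact hmem
  · right
    apply kappaAlt_of_conj (c := c)
    rw [e]; exact h

end Cfsg.Agent.Lib.Helper85.BG
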