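import Mathlib
import Cfsg.Statements.S1366
import Cfsg.Statements.S1369
import Cfsg.Statements.S1379
import Cfsg.Statements.S1431
import Cfsg.Statements.S1434
import Cfsg.Agent.Lib.Helper85.BG.S1379B

/-!
Bender–Glauberman: statement S1379 (the partition of the non-identity elements of a minimal simple
group of odd order by the sets `M̃` and the conjugates of `Ẑ`), derived from S1350, S1366, S1369,
S1375, S1378, S1404, S1425, S1430, S1431, S1432, S1433, S1434 taken as hypotheses (helper85).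
-/

set_option autoImplicit false

namespace Cfsg.Agent.Lib.Helper85.BG

open Cfsg Cfsg.Agent.Lib.Helper35.BG Cfsg.Agent.Lib.Helper67.BG Cfsg.Agent.Lib.Helper27.BG

variable {G : Type*} [Group G] [Finite G]

/-! ### part 1: the sets `M̃` of non-conjugate maximal subgroups are disjoint -/

theorem tilde_inter_eq_empty (hG : Cfsg.IsMinSimpleOddOrder G)
    (h1375 : type_of% (@Cfsg.CfsgFrozen.S1375 G _ _ hG))
    (h1378 : type_of% (@Cfsg.CfsgFrozen.S1378 G _ _ hG))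
    (h1433 : type_of% (@Cfsg.CfsgFrozen.S1433 G _ _ hG))
    {M N : Subgroup G} (hM : IsCoatom M) (hN : IsCoatom N)
    (hnc : ∀ g : G, N ≠ M.map (MulAut.conj g).toMonoidHom) :
    tildeOf M ((sigmaCore M : Set G) \ {1}) ∩ tildeOf N ((sigmaCore N : Set G) \ {1}) = ∅ := by
  rw [Set.eq_empty_iff_forall_notMem]
  rintro g ⟨⟨a, ⟨ha, ha1⟩, r, hr, y, hg1⟩, ⟨b, ⟨hb, hb1⟩, s, hs, y', hg2⟩⟩
  obtain ⟨e, he⟩ : ∃ e : G, e = y⁻¹ * y' := ⟨_, rfl⟩
  have hN₁ := isCoatom_map_conj hN e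
  have hb₁ := conj_mem_sigmaCore_map hb e
  have hs₁ := conj_mem_supportR hG h1375 hN hb hb1 hs e
  have heq : a * r = e * b * e⁻¹ * (e * s * e⁻¹) := by
    have h1 : y * (a * r) * y⁻¹ = y' * (b * s) * y'⁻¹ := by rw [← hg1, ← hg2]
    have h2 : a * r = y⁻¹ * (y * (a * r) * y⁻¹) * y := by group
    rw [h2, h1, he]; group
  have hne : a ≠ e * b * e⁻¹ := by
    intro h
    obtain ⟨q, hq, hqa⟩ := exists_prime_dvd_orderOf ha1
    have hqM := prime_mem_sigma_of_mem_sigmaCore ha hq hqa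
    have hqN : q ∈ sigma N := by
      have := prime_mem_sigma_of_mem_sigmaCore hb₁ hq (h ▸ hqa)
      rwa [sigma_map_conj] at this
    obtain ⟨g', hg'⟩ := h1378.2 M N hM hN ⟨q, hqM, hqN⟩
    exact hnc g' hg'
  exact h1433 M _ hM hN₁ a _ ha hb₁ ha1 (conj_ne_one hb1) hne r hr _ hs₁ heq

/-! ### auxiliary facts for part 3 -/

theorem coprime_card_kappa_sigmaCore {M K : Subgroup G} (hK : IsPiHallOf (kappa M) K M) :
    (Nat.card K).Coprime (Nat.card (sigmaCore M)) := by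
  apply Nat.coprime_of_dvd
  intro p hp h1 h2
  exact (hK.2.1 p hp h1).2.2.1 (sigmaCore_isPi M p hp h2)

theorem mem_sup_of_commute {A B : Subgroup G} (hAB : ∀ a ∈ A, ∀ b ∈ B, a * b = b * a) {z : G}
    (hz : z ∈ A ⊔ B) : ∃ a ∈ A, ∃ b ∈ B, z = a * b := by
  have hnorm : B ≤ Subgroup.normalizer (A : Set G) := by
    intro b hb
    rw [Subgroup.mem_normalizer_iff]
    intro x
    constructor
    · intro hx
      have : b * x * b⁻¹ = x := by rw [← hAB x hx b hb]; group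
      rw [this]; exact hx
    · intro hx
      have h1 : b * x * b⁻¹ * b = b * (b * x * b⁻¹) := hAB _ hx b hb
      have h2 : b * x = b * (b * x * b⁻¹) := by rw [← h1]; group
      have h3 : x = b * x * b⁻¹ := mul_left_cancel h2
      rw [h3]; exact hx
  have h1 : z ∈ ((A ⊔ B : Subgroup G) : Set G) := hz
  rw [Subgroup.coe_mul_of_right_le_normalizer_left A B hnorm] at h1
  obtain ⟨a, ha, b, hb, rfl⟩ := h1
  exact ⟨a, ha, b, hb, rfl⟩

theorem star_case {M Kst : Subgroup G}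
    (hTI : ∀ g : G, g ∉ M → Kst ⊓ M.map (MulAut.conj g).toMonoidHom = ⊥)
    {N₁ : Subgroup G} {h : G} (hN₁ : N₁ = M.map (MulAut.conj h).toMonoidHom) {a₁ : G}
    (ha₁ : a₁ ∈ Kst) (ha₁1 : a₁ ≠ 1) (ha₁N : a₁ ∈ N₁) :
    N₁ = M ∧ Subgroup.centralizer ({a₁} : Set G) ≤ M := by
  have hhM : h ∈ M := by
    by_contra hh
    have : a₁ ∈ Kst ⊓ M.map (MulAut.conj h).toMonoidHom := ⟨ha₁, hN₁ ▸ ha₁N⟩
    rw [hTI h hh] at this
    exact ha₁1 (Subgroup.mem_bot.mp this)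
  have hN₁M : N₁ = M := by rw [hN₁, map_conj_eq_self_of_mem hhM]
  refine ⟨hN₁M, ?_⟩
  intro c hc
  by_contra hcM
  have hcomm : c * a₁ = a₁ * c := Subgroup.mem_centralizer_singleton_iff.mp hc
  have h1 : a₁ ∈ M.map (MulAut.conj c).toMonoidHom := by
    have := conj_mem_map_conj c (hN₁M ▸ ha₁N : a₁ ∈ M)
    have e : c * a₁ * c⁻¹ = a₁ := by rw [hcomm]; group
    rwa [e] at this
  have : a₁ ∈ Kst ⊓ M.map (MulAut.conj c).toMonoidHom := ⟨ha₁, h1⟩
  rw [hTI c hcM] at this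
  exact ha₁1 (Subgroup.mem_bot.mp this)

/-! ### part 3b: no conjugate of an element of `Ẑ` lies in a set `Ñ` -/

theorem zhat_not_mem_tilde (hG : Cfsg.IsMinSimpleOddOrder G)
    (h1350 : type_of% (@Cfsg.CfsgFrozen.S1350 G _ _ hG))
    (h1375 : type_of% (@Cfsg.CfsgFrozen.S1375 G _ _ hG))
    (h1378 : type_of% (@Cfsg.CfsgFrozen.S1378 G _ _ hG))
    {M K Ks Mstar : Subgroup G} (hM : IsCoatom M) (hMstar : IsCoatom Mstar)
    (hK : IsPiHallOf (kappa M) K M)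
    (hKsσ : Ks ≤ sigmaCore M) (hKσ : K ≤ sigmaCore Mstar)
    (hcommK : ∀ a ∈ K, ∀ b ∈ Ks, a * b = b * a)
    (hTI : ∀ g : G, g ∉ M → Ks ⊓ M.map (MulAut.conj g).toMonoidHom = ⊥)
    (hTIs : Ks ≠ ⊥ → ∀ g : G, g ∉ Mstar → K ⊓ Mstar.map (MulAut.conj g).toMonoidHom = ⊥)
    (hCz : ∀ x ∈ K, x ≠ 1 → ∀ y ∈ Ks, y ≠ 1 →
      Subgroup.centralizer ({x * y} : Set G) = K ⊔ Ks)
    {N : Subgroup G} (hN : IsCoatom N) (y z : G) (hz : z ∈ K ⊔ Ks) (hzK : z ∉ K)
    (hzKs : z ∉ Ks) :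
    y * z * y⁻¹ ∉ tildeOf N ((sigmaCore N : Set G) \ {1}) := by
  rintro ⟨a, ⟨ha, ha1⟩, r, hr, w, hw⟩
  obtain ⟨k, hk, s, hs, rfl⟩ := mem_sup_of_commute hcommK hz
  have hk1 : k ≠ 1 := by
    rintro rfl
    exact hzKs (by rwa [one_mul])
  have hs1 : s ≠ 1 := by
    rintro rfl
    exact hzK (by rwa [mul_one])
  have hKs1 : Ks ≠ ⊥ := by
    intro h
    rw [h, Subgroup.mem_bot] at hs
    exact hs1 hs
  have hCz' := hCz k hk hk1 s hs hs1
  obtain ⟨e, he⟩ : ∃ e : G, e = y⁻¹ * w := ⟨_, rfl⟩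
  have hzeq : k * s = e * a * e⁻¹ * (e * r * e⁻¹) := by
    have h2 : k * s = y⁻¹ * (y * (k * s) * y⁻¹) * y := by group
    rw [h2, hw, he]; group
  have hcar : Commute a r := by
    rcases supportR_cases hG h1350 h1375 h1378 hN ha ha1 hr with h | ⟨L, d⟩
    · rw [h]; exact Commute.one_right a
    · exact d.hcomm
  have hcar₁ := conj_commute hcar e
  have ha₁σ := conj_mem_sigmaCore_map ha e
  have ha₁1 : e * a * e⁻¹ ≠ 1 := conj_ne_one ha1
  have hN₁ := isCoatom_map_conj hN e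
  have ha₁Z : e * a * e⁻¹ ∈ K ⊔ Ks := by
    rw [← hCz', hzeq]
    apply mem_centralizer_singleton_of_commute
    exact (Commute.refl _).mul_left hcar₁.symm
  obtain ⟨k₁, hk₁, s₁, hs₁, ha₁eq⟩ := mem_sup_of_commute hcommK ha₁Z
  have hcop : (orderOf k₁).Coprime (orderOf s₁) := by
    have := coprime_card_kappa_sigmaCore hK
    exact Nat.Coprime.coprime_dvd_left (Subgroup.orderOf_dvd_natCard K hk₁)
      (Nat.Coprime.coprime_dvd_right (Subgroup.orderOf_dvd_natCard _ (hKsσ hs₁)) this)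
  have hcks : Commute k₁ s₁ := hcommK k₁ hk₁ s₁ hs₁
  have hk₁z : k₁ ∈ Subgroup.zpowers (e * a * e⁻¹) := by
    rw [ha₁eq]; exact mem_zpowers_mul_of_coprime hcks hcop
  have hs₁z : s₁ ∈ Subgroup.zpowers (e * a * e⁻¹) := by
    rw [ha₁eq]; exact mem_zpowers_mul_of_coprime' hcks hcop
  have hprimes : ∀ q : ℕ, q.Prime → q ∣ orderOf (e * a * e⁻¹) →
      q ∈ sigma (N.map (MulAut.conj e).toMonoidHom) :=
    fun q hq hd => prime_mem_sigma_of_mem_sigmaCore ha₁σ hq hd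
  have key : ∀ {M₀ Kst : Subgroup G}, IsCoatom M₀ →
      (∀ g : G, g ∉ M₀ → Kst ⊓ M₀.map (MulAut.conj g).toMonoidHom = ⊥) →
      Kst ≤ sigmaCore M₀ → e * a * e⁻¹ ∈ Kst → r = 1 := by
    intro M₀ Kst hM₀ hTI₀ hKst hmem
    obtain ⟨q, hq, hqa⟩ := exists_prime_dvd_orderOf ha₁1
    have hqM₀ : q ∈ sigma M₀ := prime_mem_sigma_of_mem_sigmaCore (hKst hmem) hq hqa
    obtain ⟨h, hh⟩ := h1378.2 M₀ _ hM₀ hN₁ ⟨q, hqM₀, hprimes q hq hqa⟩
    obtain ⟨hNM, hC⟩ := star_case hTI₀ hh hmem ha₁1 (sigmaCore_le _ ha₁σ)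
    have hCN : Subgroup.centralizer ({a} : Set G) ≤ N := by
      apply centralizer_conj_le' e
      rw [hNM]; exact hC
    have hr' := hr
    rw [supportR_eq_bot hCN, Subgroup.mem_bot] at hr'
    exact hr'
  by_cases hs₁1 : s₁ = 1
  · have hmem : e * a * e⁻¹ ∈ K := by rw [ha₁eq, hs₁1, mul_one]; exact hk₁
    have hr1 := key hMstar (hTIs hKs1) hKσ hmem
    apply hzK
    rw [hzeq, hr1]
    have e1 : e * a * e⁻¹ * (e * 1 * e⁻¹) = e * a * e⁻¹ := by group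
    rw [e1]; exact hmem
  · obtain ⟨q, hq, hqs⟩ := exists_prime_dvd_orderOf hs₁1
    have hqM : q ∈ sigma M := prime_mem_sigma_of_mem_sigmaCore (hKsσ hs₁) hq hqs
    have hqN := hprimes q hq (hqs.trans (orderOf_dvd_of_mem_zpowers hs₁z))
    obtain ⟨h, hh⟩ := h1378.2 M _ hM hN₁ ⟨q, hqM, hqN⟩
    have hσ : sigma (N.map (MulAut.conj e).toMonoidHom) = sigma M := by
      rw [hh, sigma_map_conj]
    have hk₁1 : k₁ = 1 := by
      apply eq_one_of_disjoint_primes (A := sigma M) (B := kappa M)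
      · intro p hp hd
        rw [← hσ]
        exact hprimes p hp (hd.trans (orderOf_dvd_of_mem_zpowers hk₁z))
      · intro p hp hd
        exact hK.2.1 p hp (hd.trans (Subgroup.orderOf_dvd_natCard K hk₁))
      · rw [Set.eq_empty_iff_forall_notMem]
        rintro p ⟨h1, h2⟩
        exact h2.2.2.1 h1
    have hmem : e * a * e⁻¹ ∈ Ks := by rw [ha₁eq, hk₁1, one_mul]; exact hs₁
    have hr1 := key hM hTI hKsσ hmem
    apply hzKs
    rw [hzeq, hr1]
    have e1 : e * a * e⁻¹ * (e * 1 * e⁻¹) = e * a * e⁻¹ := by group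
    rw [e1]; exact hmem

/-! ### part 3a: the exceptional alternative gives a conjugate of an element of `Ẑ` -/

theorem kappaAlt_transport (hodd : Odd (Nat.card G)) {M₀ K₀ H KH : Subgroup G}
    (hsolv : Group.IsSolvable H) (hK₀ : IsPiHallOf (kappa M₀) K₀ M₀)
    (hKH : IsPiHallOf (kappa H) KH H) {c : G} (hc : H = M₀.map (MulAut.conj c).toMonoidHom)
    {k s : G} (hk : k ∈ KH) (hs : s ∈ sigmaCore H ⊓ Subgroup.centralizer (KH : Set G)) :
    ∃ d' : G, d'⁻¹ * k * d' ∈ K₀ ∧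
      d'⁻¹ * s * d' ∈ sigmaCore M₀ ⊓ Subgroup.centralizer (K₀ : Set G) := by
  have hK' : IsPiHallOf (kappa H) (K₀.map (MulAut.conj c).toMonoidHom) H := by
    have := isPiHallOf_map_conj hK₀ c
    rw [← kappa_map_conj hodd M₀ c, ← hc] at this
    exact this
  obtain ⟨m, hm, hKHeq⟩ := exists_conj_of_isPiHallOf hsolv hK' hKH
  rw [map_conj_mul] at hKHeq
  have hHeq : H = M₀.map (MulAut.conj (m * c)).toMonoidHom := by
    rw [← map_conj_mul, ← hc, map_conj_eq_self_of_mem hm]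
  refine ⟨m * c, ?_, Subgroup.mem_inf.mpr ⟨?_, ?_⟩⟩
  · rw [hKHeq] at hk
    exact mem_map_conj_iff.mp hk
  · have h1 := (Subgroup.mem_inf.mp hs).1
    rw [hHeq, sigmaCore_map_conj] at h1
    exact mem_map_conj_iff.mp h1
  · apply Subgroup.mem_centralizer_iff.mpr
    intro k' hk'
    have h2 := Subgroup.mem_centralizer_iff.mp (Subgroup.mem_inf.mp hs).2
    have h3 := h2 ((m * c) * k' * (m * c)⁻¹)
      (by rw [hKHeq]; exact conj_mem_map_conj (m * c) hk')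
    have e1 : k' * ((m * c)⁻¹ * s * (m * c)) =
        (m * c)⁻¹ * ((m * c) * k' * (m * c)⁻¹ * s) * (m * c) := by group
    have e2 : (m * c)⁻¹ * s * (m * c) * k' =
        (m * c)⁻¹ * (s * ((m * c) * k' * (m * c)⁻¹)) * (m * c) := by group
    rw [e1, e2, h3]

theorem kappaAlt_zhat (hodd : Odd (Nat.card G))
    (hsolv : ∀ H : Subgroup G, IsCoatom H → Group.IsSolvable H)
    {M K Ks Mstar : Subgroup G}
    (hK : IsPiHallOf (kappa M) K M)
    (hKsdef : Ks = sigmaCore M ⊓ Subgroup.centralizer (K : Set G))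
    (hKst : K = sigmaCore Mstar ⊓ Subgroup.centralizer (Ks : Set G))
    (hKstH : IsPiHallOf (kappa Mstar) Ks Mstar)
    (h1369 : ∀ H : Subgroup G, IsCoatom H → (kappa H).Nonempty →
        ∃ g : G, H = M.map (MulAut.conj g).toMonoidHom ∨
          H = Mstar.map (MulAut.conj g).toMonoidHom)
    {g : G} (hg : KappaAlt g) :
    ∃ y z : G, z ∈ K ⊔ Ks ∧ z ∉ K ∧ z ∉ Ks ∧ g = y * z * y⁻¹ := by
  obtain ⟨H, KH, k, s, d, hH, hKH, hk, hk1, hs, hs1, rfl⟩ := hg
  have hKH1 : KH ≠ ⊥ := by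
    intro h
    rw [h, Subgroup.mem_bot] at hk
    exact hk1 hk
  have hne : (kappa H).Nonempty := by
    have hcard : Nat.card KH ≠ 1 := fun h => hKH1 (Subgroup.card_eq_one.mp h)
    obtain ⟨p, hp, hdvd⟩ := Nat.exists_prime_and_dvd hcard
    exact ⟨p, hKH.2.1 p hp hdvd⟩
  have hcop := coprime_card_kappa_sigmaCore hK
  have hKKs : ∀ t : G, t ∈ K → t ∈ Ks → t = 1 := by
    intro t h1 h2
    rw [hKsdef] at h2
    exact Cfsg.Agent.Lib.Helper1.eq_one_of_mem_of_coprime hcop h1 h2.1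
  have hback : ∀ (d' t : G), d'⁻¹ * t * d' = 1 → t = 1 := by
    intro d' t h
    have : t = d' * (d'⁻¹ * t * d') * d'⁻¹ := by group
    rw [this, h]; group
  obtain ⟨c, hc | hc⟩ := h1369 H hH hne
  · obtain ⟨d', hk₀, hs₀⟩ := kappaAlt_transport hodd (hsolv H hH) hK hKH hc hk hs
    rw [← hKsdef] at hs₀
    refine ⟨d * d', (d'⁻¹ * s * d') * (d'⁻¹ * k * d'), ?_, ?_, ?_, by group⟩
    · exact Subgroup.mul_mem _ (Subgroup.mem_sup_right hs₀) (Subgroup.mem_sup_left hk₀)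
    · intro hz
      have h1 : d'⁻¹ * s * d' ∈ K := (K.mul_mem_cancel_right hk₀).mp hz
      exact hs1 (hback d' s (hKKs _ h1 hs₀))
    · intro hz
      have h1 : d'⁻¹ * k * d' ∈ Ks := (Ks.mul_mem_cancel_left hs₀).mp hz
      exact hk1 (hback d' k (hKKs _ hk₀ h1))
  · obtain ⟨d', hk₀, hs₀⟩ := kappaAlt_transport hodd (hsolv H hH) hKstH hKH hc hk hs
    rw [← hKst] at hs₀
    refine ⟨d * d', (d'⁻¹ * s * d') * (d'⁻¹ * k * d'), ?_, ?_, ?_, by group⟩
    · exact Subgroup.mul_mem _ (Subgroup.mem_sup_left hs₀) (Subgroup.mem_sup_right hk₀)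
    · intro hz
      have h1 : d'⁻¹ * k * d' ∈ K := (K.mul_mem_cancel_left hs₀).mp hz
      exact hk1 (hback d' k (hKKs _ h1 hk₀))
    · intro hz
      have h1 : d'⁻¹ * s * d' ∈ Ks := (Ks.mul_mem_cancel_right hk₀).mp hz
      exact hs1 (hback d' s (hKKs _ hs₀ h1))

/-! ### the statement -/

/-- Statement S1379 from S1350, S1366, S1369, S1375, S1378, S1404, S1425, S1430, S1431, S1432,
S1433 and S1434. -/
theorem s1379_core (hG : Cfsg.IsMinSimpleOddOrder G)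
    (h1350 : type_of% (@Cfsg.CfsgFrozen.S1350 G _ _ hG))
    (h1366 : type_of% (@Cfsg.CfsgFrozen.S1366 G _ _ hG))
    (h1369 : type_of% (@Cfsg.CfsgFrozen.S1369 G _ _ hG))
    (h1375 : type_of% (@Cfsg.CfsgFrozen.S1375 G _ _ hG))
    (h1378 : type_of% (@Cfsg.CfsgFrozen.S1378 G _ _ hG))
    (h1404 : type_of% (@Cfsg.CfsgFrozen.S1404 G _ _ hG))
    (h1425 : type_of% (@Cfsg.CfsgFrozen.S1425 G _ _ hG))
    (h1430 : type_of% (@Cfsg.CfsgFrozen.S1430 G _ _ hG))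
    (h1431 : type_of% (@Cfsg.CfsgFrozen.S1431 G _ _ hG))
    (h1432 : type_of% (@Cfsg.CfsgFrozen.S1432 G _ _ hG))
    (h1433 : type_of% (@Cfsg.CfsgFrozen.S1433 G _ _ hG))
    (h1434 : type_of% (@Cfsg.CfsgFrozen.S1434 G _ _ hG)) :
    type_of% (@Cfsg.CfsgFrozen.S1379 G _ _ hG) := by
  refine ⟨?_, ?_, ?_⟩
  · intro M N hM hN hnc
    exact tilde_inter_eq_empty hG h1375 h1378 h1433 hM hN hnc
  · intro hκ g hg
    rcases cover_main hG h1350 h1375 h1378 h1404 h1425 h1430 h1432 hg with h | h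
    · exact h
    · exfalso
      obtain ⟨H, KH, k, s, d, hH, hKH, hk, hk1, -⟩ := h
      have hKH1 : KH ≠ ⊥ := by
        intro h
        rw [h, Subgroup.mem_bot] at hk
        exact hk1 hk
      have hcard : Nat.card KH ≠ 1 := fun h => hKH1 (Subgroup.card_eq_one.mp h)
      obtain ⟨p, hp, hdvd⟩ := Nat.exists_prime_and_dvd hcard
      have := hKH.2.1 p hp hdvd
      rw [hκ H hH] at this
      exact this
  · intro M K U hM hKU hK1
    obtain ⟨Mstar, ⟨hMstar, hKst, hKstH⟩, -⟩ := h1366 M hM K U hKU hK1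
    have h34 := (h1434 M hM K U hKU hK1 Mstar hMstar hKst hKstH).2.2.1
    have h69 := (h1369 M hM K U hKU hK1 Mstar hMstar hKst hKstH).2
    have h31 := (h1431 M hM K hKU.hall hK1).1
    obtain ⟨Ks, hKsdef⟩ : ∃ Ks, Ks = sigmaCore M ⊓ Subgroup.centralizer (K : Set G) := ⟨_, rfl⟩
    have hKst2 : K = sigmaCore Mstar ⊓ Subgroup.centralizer (Ks : Set G) := by
      rw [hKsdef]; exact hKst
    rw [← hKsdef] at hKstH h34 h31 ⊢
    have hKsσ : Ks ≤ sigmaCore M := by rw [hKsdef]; exact inf_le_left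
    have hKσ : K ≤ sigmaCore Mstar := by
      intro t ht
      rw [hKst2] at ht
      exact ht.1
    have hcommK : ∀ a ∈ K, ∀ b ∈ Ks, a * b = b * a := by
      intro a ha b hb
      rw [hKsdef] at hb
      exact (Subgroup.mem_centralizer_iff.mp hb.2) a ha
    have hTIs : Ks ≠ ⊥ → ∀ g : G, g ∉ Mstar →
        K ⊓ Mstar.map (MulAut.conj g).toMonoidHom = ⊥ := by
      intro hKs1
      have := (h1431 Mstar hMstar Ks hKstH hKs1).1
      rwa [← hKst2] at this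
    have hCz : ∀ x ∈ K, x ≠ 1 → ∀ y ∈ Ks, y ≠ 1 →
        Subgroup.centralizer ({x * y} : Set G) = K ⊔ Ks :=
      fun x hx hx1 y hy hy1 => (h34 x hx hx1 y hy hy1).2.2
    refine ⟨?_, ?_⟩
    · intro g hg
      rcases cover_main hG h1350 h1375 h1378 h1404 h1425 h1430 h1432 hg with h | h
      · exact Or.inl h
      · right
        obtain ⟨y, z, hz, hzK, hzKs, rfl⟩ := kappaAlt_zhat hG.1
          (fun H hH => isSolvable_of_ne_top hG hH.1) hKU.hall hKsdef hKst2 hKstH h69 h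
        exact ⟨y, z, ⟨hz, fun h => h.elim hzK hzKs⟩, rfl⟩
    · intro N hN y z hz
      exact zhat_not_mem_tilde hG h1350 h1375 h1378 hM hMstar hKU.hall hKsσ hKσ hcommK h31 hTIs
        hCz hN y z hz.1 (fun h => hz.2 (Or.inl h)) (fun h => hz.2 (Or.inr h))

end Cfsg.Agent.Lib.Helper85.BG
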