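import Mathlib
import Cfsg.Agent.Lib.Helper70.BG.S1421Defs
import Cfsg.Agent.Lib.Helper35.BG.Hall

/-!
S1421 team project (helper70): packages `LemD` (coprime action on an abelian group:
`P = C_P(n) × [P, n]`) and `LemOmega` (a `p'`-automorphism of an abelian `p`-group trivial on
`Ω₁` is trivial) — helper85.
-/

set_option autoImplicit false

namespace Cfsg.Agent.Lib.Helper85.BG

open Cfsg

universe u

theorem card_mul_le_card_sup {G : Type u} [Group G] [Finite G] {C D : Subgroup G}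
    (h : C ⊓ D = ⊥) : Nat.card C * Nat.card D ≤ Nat.card (C ⊔ D : Subgroup G) := by
  rw [← Nat.card_prod]
  apply Nat.card_le_card_of_injective (fun cd : C × D =>
    (⟨(cd.1 : G) * (cd.2 : G), Subgroup.mul_mem _ (Subgroup.mem_sup_left cd.1.2)
      (Subgroup.mem_sup_right cd.2.2)⟩ : ↥(C ⊔ D)))
  rintro ⟨c, d⟩ ⟨c', d'⟩ heq
  have heq' : (c : G) * d = c' * d' := congrArg Subtype.val heq
  have h1 : (c' : G)⁻¹ * c = d' * (d : G)⁻¹ := by
    calc (c' : G)⁻¹ * c = (c' : G)⁻¹ * ((c : G) * d) * (d : G)⁻¹ := by group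
      _ = (c' : G)⁻¹ * ((c' : G) * d') * (d : G)⁻¹ := by rw [heq']
      _ = d' * (d : G)⁻¹ := by group
  have h2 : (c' : G)⁻¹ * c ∈ C ⊓ D :=
    ⟨C.mul_mem (C.inv_mem c'.2) c.2, h1 ▸ D.mul_mem d'.2 (D.inv_mem d.2)⟩
  rw [h, Subgroup.mem_bot] at h2
  have hc : (c' : G) = c := inv_mul_eq_one.mp h2
  have hd : (d : G) = d' := by
    rw [← hc] at heq'
    exact mul_left_cancel heq'
  exact Prod.ext (Subtype.ext hc.symm) (Subtype.ext hd)

theorem lemD : Cfsg.Agent.Lib.Helper70.BG21.LemD.{u} := by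
  intro G _ _ P n m hP hn hnm hcop
  have hcommP : ∀ a ∈ P, ∀ b ∈ P, a * b = b * a :=
    Cfsg.Agent.Lib.Helper35.BG.isMulCommutative_subgroup_iff.mp hP
  have hconj : ∀ x ∈ P, n * x * n⁻¹ ∈ P :=
    fun x hx => (Subgroup.mem_normalizer_iff.mp hn x).mp hx
  let δ : ↥P →* G := MonoidHom.mk' (fun x => n * (x : G) * n⁻¹ * (x : G)⁻¹) (by
    intro a b
    have hBb : n * (b : G) * n⁻¹ * (b : G)⁻¹ ∈ P := P.mul_mem (hconj b b.2) (P.inv_mem b.2)
    have ha' : (a : G)⁻¹ ∈ P := P.inv_mem a.2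
    show n * ((a : G) * (b : G)) * n⁻¹ * ((a : G) * (b : G))⁻¹ =
      n * (a : G) * n⁻¹ * (a : G)⁻¹ * (n * (b : G) * n⁻¹ * (b : G)⁻¹)
    calc n * ((a : G) * (b : G)) * n⁻¹ * ((a : G) * (b : G))⁻¹
        = n * (a : G) * n⁻¹ * ((n * (b : G) * n⁻¹ * (b : G)⁻¹) * (a : G)⁻¹) := by group
      _ = n * (a : G) * n⁻¹ * ((a : G)⁻¹ * (n * (b : G) * n⁻¹ * (b : G)⁻¹)) := by
          rw [hcommP _ hBb _ ha']
      _ = n * (a : G) * n⁻¹ * (a : G)⁻¹ * (n * (b : G) * n⁻¹ * (b : G)⁻¹) := by group)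
  have hδ : ∀ x : ↥P, δ x = n * (x : G) * n⁻¹ * (x : G)⁻¹ := fun x => rfl
  have hDP : δ.range ≤ P := by
    rintro _ ⟨x, rfl⟩
    rw [hδ]
    exact P.mul_mem (hconj x x.2) (P.inv_mem x.2)
  have hinf : (P ⊓ Subgroup.centralizer ({n} : Set G)) ⊓ δ.range = ⊥ := by
    rw [eq_bot_iff]
    intro d hd
    obtain ⟨hd1, hd2⟩ := Subgroup.mem_inf.mp hd
    obtain ⟨hdP, hdn⟩ := Subgroup.mem_inf.mp hd1
    obtain ⟨x, hx⟩ := hd2
    rw [hδ] at hx
    have hdn' : d * n = n * d := Subgroup.mem_centralizer_singleton_iff.mp hdn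
    have hdx : n * (x : G) * n⁻¹ = d * (x : G) := by rw [← hx]; group
    have hdxc : d * (x : G) = (x : G) * d := hcommP d hdP x x.2
    have hnd : ∀ k : ℕ, n * d ^ k * n⁻¹ = d ^ k := by
      intro k
      have : Commute n d := hdn'.symm
      have h2 : n * d ^ k = d ^ k * n := (this.pow_right k).eq
      rw [h2]; group
    have key : ∀ k : ℕ, n ^ k * (x : G) * (n ^ k)⁻¹ = (x : G) * d ^ k := by
      intro k
      induction k with
      | zero => simp
      | succ k ih =>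
        calc n ^ (k + 1) * (x : G) * (n ^ (k + 1))⁻¹
            = n * (n ^ k * (x : G) * (n ^ k)⁻¹) * n⁻¹ := by rw [pow_succ']; group
          _ = n * ((x : G) * d ^ k) * n⁻¹ := by rw [ih]
          _ = (n * (x : G) * n⁻¹) * (n * d ^ k * n⁻¹) := by group
          _ = (d * (x : G)) * d ^ k := by rw [hdx, hnd]
          _ = (x : G) * d ^ (k + 1) := by rw [hdxc, pow_succ', mul_assoc]
    have hm := key m
    have hnmx : n ^ m * (x : G) * (n ^ m)⁻¹ = (x : G) := by
      have := (Subgroup.mem_centralizer_iff.mp hnm) (x : G) x.2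
      rw [← this]; group
    rw [hnmx] at hm
    have hdm : d ^ m = 1 := by
      have : (x : G) * 1 = (x : G) * d ^ m := by rw [mul_one]; exact hm
      exact (mul_left_cancel this).symm
    have h1 : orderOf d ∣ m := orderOf_dvd_of_pow_eq_one hdm
    have h2 : orderOf d ∣ Nat.card P := Subgroup.orderOf_dvd_natCard P hdP
    have h3 : orderOf d ∣ 1 := by
      have := Nat.dvd_gcd h2 h1
      rwa [Nat.Coprime.gcd_eq_one hcop] at this
    rw [Subgroup.mem_bot]
    exact orderOf_eq_one_iff.mp (Nat.dvd_one.mp h3)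
  refine ⟨δ.range, hDP, ?_, ?_, hinf, ?_⟩
  · intro x hx
    exact ⟨⟨x, hx⟩, rfl⟩
  · rintro _ ⟨x, rfl⟩
    exact ⟨x, x.2, rfl⟩
  · have hle : (P ⊓ Subgroup.centralizer ({n} : Set G)) ⊔ δ.range ≤ P := sup_le inf_le_left hDP
    apply Subgroup.eq_of_le_of_card_ge hle
    have h1 : Nat.card δ.ker * Nat.card δ.range = Nat.card P := by
      rw [← Subgroup.index_ker δ]
      exact Subgroup.card_mul_index δ.ker
    have h2 : δ.ker.map P.subtype = P ⊓ Subgroup.centralizer ({n} : Set G) := by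
      ext y
      constructor
      · rintro ⟨x, hx, rfl⟩
        refine Subgroup.mem_inf.mpr ⟨x.2, ?_⟩
        have hx' : δ x = 1 := MonoidHom.mem_ker.mp hx
        rw [hδ] at hx'
        apply Subgroup.mem_centralizer_singleton_iff.mpr
        have : n * (x : G) = (x : G) * n := by
          calc n * (x : G) = (n * (x : G) * n⁻¹ * (x : G)⁻¹) * ((x : G) * n) := by group
            _ = (x : G) * n := by rw [hx', one_mul]
        exact this.symm
      · intro hy
        obtain ⟨hyP, hyn⟩ := Subgroup.mem_inf.mp hy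
        have : y * n = n * y := Subgroup.mem_centralizer_singleton_iff.mp hyn
        refine ⟨⟨y, hyP⟩, MonoidHom.mem_ker.mpr ?_, rfl⟩
        show n * y * n⁻¹ * y⁻¹ = 1
        rw [← this]; group
    have h3 : Nat.card δ.ker = Nat.card ↥(P ⊓ Subgroup.centralizer ({n} : Set G)) := by
      rw [← h2, Subgroup.card_map_of_injective P.subtype_injective]
    rw [← h1, h3]
    exact card_mul_le_card_sup hinf

theorem lemOmega : Cfsg.Agent.Lib.Helper70.BG21.LemOmega.{u} := by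
  intro G _ _ p _ P n m hPp hP hn hnm hmp hΩ
  have hpp : p.Prime := Fact.out
  have hcop : (Nat.card P).Coprime m := by
    obtain ⟨k, hk⟩ := IsPGroup.iff_card.mp hPp
    rw [hk]
    exact (Nat.Coprime.pow_left k hmp.symm)
  obtain ⟨D₂, hD₂P, hD₂a, hD₂b, hD₂c, -⟩ := lemD P n m hP hn hnm hcop
  have hD₂ : D₂ = ⊥ := by
    by_contra hne
    obtain ⟨d', hd'1⟩ := (Subgroup.ne_bot_iff_exists_ne_one).mp hne
    have hd'1' : (d' : G) ≠ 1 := fun h => hd'1 (Subtype.ext h)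
    -- an element of order p in D₂
    obtain ⟨k, hk⟩ := (hPp ⟨d', hD₂P d'.2⟩)
    have hk' : (d' : G) ^ p ^ k = 1 := by
      have := congrArg Subtype.val hk
      simpa using this
    have hdvd : orderOf (d' : G) ∣ p ^ k := orderOf_dvd_of_pow_eq_one hk'
    obtain ⟨j, hj, hoj⟩ := (Nat.dvd_prime_pow hpp).mp hdvd
    have hj0 : j ≠ 0 := by
      rintro rfl
      rw [pow_zero, orderOf_eq_one_iff] at hoj
      exact hd'1' hoj
    obtain ⟨i, rfl⟩ := Nat.exists_eq_succ_of_ne_zero hj0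
    have ho : orderOf ((d' : G) ^ p ^ i) = p := by
      rw [orderOf_pow' _ (pow_ne_zero _ hpp.ne_zero), hoj,
        Nat.gcd_eq_right (pow_dvd_pow p (Nat.le_succ i)), pow_succ,
        Nat.mul_div_cancel_left _ (pow_pos hpp.pos i)]
    have hdD : (d' : G) ^ p ^ i ∈ D₂ := D₂.pow_mem d'.2 _
    have hdp : ((d' : G) ^ p ^ i) ^ p = 1 := by
      have h := pow_orderOf_eq_one ((d' : G) ^ p ^ i)
      rwa [ho] at h
    have hcomm := hΩ _ (hD₂P hdD) hdp
    have hmem : (d' : G) ^ p ^ i ∈ (P ⊓ Subgroup.centralizer ({n} : Set G)) ⊓ D₂ :=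
      Subgroup.mem_inf.mpr ⟨Subgroup.mem_inf.mpr ⟨hD₂P hdD,
        Subgroup.mem_centralizer_singleton_iff.mpr hcomm.symm⟩, hdD⟩
    rw [hD₂c, Subgroup.mem_bot] at hmem
    rw [hmem, orderOf_one] at ho
    exact hpp.one_lt.ne ho
  apply Subgroup.mem_centralizer_iff.mpr
  intro x hx
  have h1 := hD₂a x hx
  rw [hD₂, Subgroup.mem_bot] at h1
  calc x * n = (n * x * n⁻¹ * x⁻¹)⁻¹ * (n * x) := by group
    _ = n * x := by rw [h1, inv_one, one_mul]

end Cfsg.Agent.Lib.Helper85.BG
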