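import Mathlib
import Cfsg.Agent.Lib.Helper50.BG.S1430Defs
import Cfsg.Agent.Lib.Helper85.BG.Conj
import Cfsg.Agent.Lib.Helper52.CyclicAux
import Cfsg.Agent.Lib.Helper23.Compl
import Cfsg.Agent.Lib.Helper67.BG.Basics

/-!
S1430 campaign (helper50's CASE I packages): `LemKappaFix` (a subgroup of `M` of order
`p ∈ κ(M)` has a non-trivial fixed point on `M_σ`) and `LemKappaTau1` (in CASE I,
`κ(M) ⊆ τ₁(M)`) — helper85.
-/

set_option autoImplicit false

namespace Cfsg.Agent.Lib.Helper85.BG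

open Cfsg

universe u

/-- A subgroup of prime order is generated by each of its non-identity elements. -/
theorem le_zpowers_of_card_prime {G : Type u} [Group G] {X : Subgroup G} {p : ℕ}
    (hp : p.Prime) (hX : Nat.card X = p) {w : G} (hw : w ∈ X) (hw1 : w ≠ 1) :
    X ≤ Subgroup.zpowers w ∧ orderOf w = p := by
  haveI : Finite X := Nat.finite_of_card_ne_zero (by rw [hX]; exact hp.ne_zero)
  have hle : Subgroup.zpowers w ≤ X := (Subgroup.zpowers_le).mpr hw
  have hcard : Nat.card (Subgroup.zpowers w) = p := by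
    have hdvd : Nat.card (Subgroup.zpowers w) ∣ Nat.card X := Subgroup.card_dvd_of_le hle
    rw [hX] at hdvd
    rcases (Nat.dvd_prime hp).mp hdvd with h | h
    · exfalso
      rw [Nat.card_zpowers, orderOf_eq_one_iff] at h
      exact hw1 h
    · exact h
  have heq : Subgroup.zpowers w = X :=
    Subgroup.eq_of_le_of_card_ge hle (by rw [hcard, hX])
  refine ⟨heq.ge, ?_⟩
  rw [← Nat.card_zpowers]; exact hcard

theorem lemKappaFix : Cfsg.Agent.Lib.Helper50.BG30.LemKappaFix.{u} := by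
  intro G _ _ M p hp X hXM hX
  obtain ⟨hpp, -, -, hSyl⟩ := hp
  haveI : Fact p.Prime := ⟨hpp⟩
  have hXp : IsPGroup p (X.subgroupOf M) := by
    apply IsPGroup.of_card (n := 1)
    rw [pow_one, ← hX]
    exact Nat.card_congr (Subgroup.subgroupOfEquivOfLe hXM).toEquiv
  obtain ⟨P, hP⟩ := hXp.exists_le_sylow
  obtain ⟨hPc, x, hxP, hx1, y, hy, hy1, hxy⟩ := hSyl P
  have hXne : X ≠ ⊥ := by
    intro h
    rw [h, Subgroup.card_bot] at hX
    exact hpp.one_lt.ne hX
  obtain ⟨r, hr, hr1⟩ : ∃ r ∈ X, r ≠ 1 := by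
    by_contra hcon
    push_neg at hcon
    exact hXne ((Subgroup.eq_bot_iff_forall X).mpr hcon)
  obtain ⟨hXr, hor⟩ := le_zpowers_of_card_prime hpp hX hr hr1
  have hrP : (⟨r, hXM hr⟩ : M) ∈ (P : Subgroup M) := hP (Subgroup.mem_subgroupOf.mpr hr)
  obtain ⟨r', hr'⟩ : ∃ r' : (P : Subgroup M), r' = ⟨⟨r, hXM hr⟩, hrP⟩ := ⟨_, rfl⟩
  obtain ⟨x', hx'⟩ : ∃ x' : (P : Subgroup M), x' = ⟨x, hxP⟩ := ⟨_, rfl⟩
  haveI := hPc
  have hle : Subgroup.zpowers r' ≤ Subgroup.zpowers x' := by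
    apply Cfsg.Agent.Lib.Helper52.le_of_card_dvd_of_isCyclic
    rw [Nat.card_zpowers, Nat.card_zpowers]
    have h1 : orderOf r' = p := by
      rw [hr', Subgroup.orderOf_mk, Subgroup.orderOf_mk]; exact hor
    rw [h1]
    obtain ⟨k, hk⟩ := (IsPGroup.iff_orderOf.mp P.isPGroup') x'
    rw [hk]
    rcases k with _ | k
    · exfalso
      rw [pow_zero, orderOf_eq_one_iff, hx'] at hk
      apply hx1
      have := congrArg Subtype.val hk
      simpa using this
    · exact dvd_pow_self p (Nat.succ_ne_zero k)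
  obtain ⟨n, hn⟩ := Subgroup.mem_zpowers_iff.mp (hle (Subgroup.mem_zpowers r'))
  have hn' : ((x : M) : G) ^ n = r := by
    have := congrArg (fun z : (P : Subgroup M) => ((z : M) : G)) hn
    rw [hx', hr'] at this
    simpa using this
  have hyr : Commute y r := by
    rw [← hn']
    have hc : Commute y ((x : M) : G) := hxy.symm
    exact hc.zpow_right n
  intro hbot
  have hmem : y ∈ Cfsg.sigmaCore M ⊓ Subgroup.centralizer (X : Set G) := by
    refine Subgroup.mem_inf.mpr ⟨hy, ?_⟩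
    apply Subgroup.mem_centralizer_iff.mpr
    intro z hz
    obtain ⟨m, rfl⟩ := Subgroup.mem_zpowers_iff.mp (hXr hz)
    exact ((hyr.zpow_right m).eq).symm
  rw [hbot, Subgroup.mem_bot] at hmem
  exact hy1 hmem

theorem lemKappaTau1 : Cfsg.Agent.Lib.Helper50.BG30.LemKappaTau1.{u} := by
  intro hFix G _ _ hG hy M hM E hE hreg p hp
  have hpp := hp.1
  have hpM := hp.2.1
  have hpσ := hp.2.2.1
  have hr1 : Cfsg.PRankLE p 1 M := pRankLE_one_of_mem_kappa hp
  by_contra hnτ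
  have hd : p ∣ Nat.card ↥⁅M, M⁆ := by
    by_contra hnd
    exact hnτ ⟨hpp, hpσ, hpM, hnd, hr1⟩
  have hτ3 : p ∈ Cfsg.tau3 M := ⟨hpp, hpσ, hd, hr1⟩
  have hpE : p ∣ Nat.card E := by
    have hcard := Cfsg.Agent.Lib.Helper23.card_of_isComplIn hE
    rw [hcard] at hpM
    rcases (Nat.Prime.dvd_mul hpp).mp hpM with h | h
    · exact h
    · exact absurd (Cfsg.Agent.Lib.Helper67.BG.sigmaCore_isPi M p hpp h) hpσ
  haveI : Fact p.Prime := ⟨hpp⟩
  obtain ⟨e, he⟩ := exists_prime_orderOf_dvd_card' p hpE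
  have hRE : Subgroup.zpowers (e : G) ≤ E := (Subgroup.zpowers_le).mpr e.2
  have hRc : Nat.card (Subgroup.zpowers (e : G)) = p := by
    rw [Nat.card_zpowers, Subgroup.orderOf_coe]; exact he
  exact hFix M p hp (Subgroup.zpowers (e : G)) (hRE.trans hE.1) hRc
    (hreg p hτ3 (Subgroup.zpowers (e : G)) hRE hRc)

end Cfsg.Agent.Lib.Helper85.BG
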