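import Mathlib
import Cfsg.Agent.Lib.Helper50.BG.S1430Defs
import Cfsg.Agent.Lib.Helper35.BG.Basic
import Cfsg.Agent.Lib.Helper35.BG.Hall
import Cfsg.Agent.Lib.Helper67.BG.Basics
import Cfsg.Agent.Lib.Helper67.BG.HallUtil
import Cfsg.Agent.Lib.Helper1.SZInternal

/-!
S1430 campaign (helper50's CASE I packages): `LemUex` — if `κ(M) ⊆ τ₁(M)` then `E` has a normal
complement `U` to `K`, a Hall `(κ(M) ∪ σ(M))'`-subgroup of `M` — helper85.
-/

set_option autoImplicit false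

namespace Cfsg.Agent.Lib.Helper85.BG

open Cfsg

universe u

theorem lemUex : Cfsg.Agent.Lib.Helper50.BG30.LemUex.{u} := by
  intro G _ _ hG hy M hM E hE K hK hKE hκ
  obtain ⟨π', hπ'⟩ : ∃ π' : Set ℕ, π' = {q | q ∉ Cfsg.kappa M} := ⟨_, rfl⟩
  have hEM : E ≤ M := hE.1
  have hsolvM : Group.IsSolvable M := Cfsg.Agent.Lib.Helper35.BG.isSolvable_of_ne_top hG hM.1
  have hsolvE : Group.IsSolvable E := Cfsg.Agent.Lib.Helper1.isSolvable_of_le hEM hsolvM
  -- `E'` is a `κ'`-group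
  have hE'π : ∀ q : ℕ, q.Prime → q ∣ Nat.card ↥⁅E, E⁆ → q ∈ π' := by
    intro q _ hdvd
    rw [hπ']
    intro hqκ
    have hτ1 := hκ q hqκ
    apply hτ1.2.2.2.1
    exact hdvd.trans (Subgroup.card_dvd_of_le (Subgroup.commutator_mono hEM hEM))
  have hE'E : ⁅E, E⁆ ≤ E := by
    rw [Subgroup.commutator_le]
    intro a ha b hb
    exact E.mul_mem (E.mul_mem (E.mul_mem ha hb) (E.inv_mem ha)) (E.inv_mem hb)
  obtain ⟨U, hU, hE'U⟩ :=
    Cfsg.Agent.Lib.Helper67.BG.exists_piHallOf_ge π' E hsolvE ⁅E, E⁆ hE'E hE'π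
  have hUE : U ≤ E := hU.1
  -- `U` is normal in `E`
  have hconj : ∀ e ∈ E, ∀ u ∈ U, e * u * e⁻¹ ∈ U := by
    intro e he u hu
    have h1 : e * u * e⁻¹ * u⁻¹ ∈ ⁅E, E⁆ := Subgroup.commutator_mem_commutator he (hUE hu)
    have : e * u * e⁻¹ = (e * u * e⁻¹ * u⁻¹) * u := by group
    rw [this]; exact U.mul_mem (hE'U h1) hu
  have hnorm : E ≤ Subgroup.normalizer (U : Set G) := by
    intro e he
    rw [Subgroup.mem_normalizer_iff]
    intro h
    constructor
    · exact hconj e he h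
    · intro hh
      have := hconj e⁻¹ (E.inv_mem he) _ hh
      have h2 : e⁻¹ * (e * h * e⁻¹) * e⁻¹⁻¹ = h := by group
      rwa [h2] at this
  -- primes of `E` are outside `σ(M)`
  have hσH := (hy.h1350 M hM).1
  have hrelσ : (Cfsg.sigmaCore M).relIndex M = Nat.card E :=
    Cfsg.Agent.Lib.Helper35.BG.relIndex_right_of_isComplIn hE
  have hEσ : ∀ q : ℕ, q.Prime → q ∣ Nat.card E → q ∉ Cfsg.sigma M := by
    intro q hq hdvd hqσ
    exact hσH.2.2 q hq hqσ (by rw [hrelσ]; exact hdvd)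
  have hrelE : E.relIndex M = Nat.card (Cfsg.sigmaCore M) :=
    Cfsg.Agent.Lib.Helper35.BG.relIndex_left_of_isComplIn hE
  -- `U` is a Hall subgroup of `M`
  have hUhall : Cfsg.IsPiHallOf {q | q.Prime ∧ q ∉ Cfsg.kappa M ∧ q ∉ Cfsg.sigma M} U M := by
    refine ⟨hUE.trans hEM, ?_, ?_⟩
    · intro q hq hdvd
      refine ⟨hq, ?_, hEσ q hq (hdvd.trans (Subgroup.card_dvd_of_le hUE))⟩
      have := hU.2.1 q hq hdvd
      rw [hπ'] at this; exact this
    · intro q hq hqπ hdvd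
      rw [← Subgroup.relIndex_mul_relIndex U E M hUE hEM] at hdvd
      rcases (Nat.Prime.dvd_mul hq).mp hdvd with h | h
      · exact hU.2.2 q hq (by rw [hπ']; exact hqπ.2.1) h
      · rw [hrelE] at h
        exact hqπ.2.2 (Cfsg.Agent.Lib.Helper67.BG.sigmaCore_isPi M q hq h)
  -- complement
  have hcop : (Nat.card K).Coprime (Nat.card U) := by
    rw [Nat.coprime_iff_gcd_eq_one]
    by_contra hne
    obtain ⟨q, hq, hdvd⟩ := Nat.exists_prime_and_dvd hne
    have h1 := hK.2.1 q hq (hdvd.trans (Nat.gcd_dvd_left _ _))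
    have h2 := hU.2.1 q hq (hdvd.trans (Nat.gcd_dvd_right _ _))
    rw [hπ'] at h2
    exact h2 h1
  have hinf : U ⊓ K = ⊥ := (Subgroup.disjoint_of_coprime_natCard hcop.symm).eq_bot
  have hKnU : K ≤ Subgroup.normalizer (U : Set G) := hKE.trans hnorm
  have hcardsup : Nat.card (U ⊔ K : Subgroup G) = Nat.card U * Nat.card K :=
    Cfsg.Agent.Lib.Helper1.card_sup_of_normalizer_coprime U K hKnU hcop
  have hsup : U ⊔ K = E := by
    apply Subgroup.eq_of_le_of_card_ge (sup_le hUE hKE)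
    rw [hcardsup]
    apply Nat.le_of_dvd (Nat.mul_pos Nat.card_pos Nat.card_pos)
    have e1 : Nat.card U * U.relIndex E = Nat.card E :=
      Cfsg.Agent.Lib.Helper35.BG.card_mul_relIndex' hUE
    have e2 : Nat.card K * K.relIndex E = Nat.card E :=
      Cfsg.Agent.Lib.Helper35.BG.card_mul_relIndex' hKE
    have hcop2 : (U.relIndex E).Coprime (K.relIndex E) := by
      rw [Nat.coprime_iff_gcd_eq_one]
      by_contra hne
      obtain ⟨q, hq, hdvd⟩ := Nat.exists_prime_and_dvd hne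
      have hq1 : q ∣ U.relIndex E := hdvd.trans (Nat.gcd_dvd_left _ _)
      have hq2 : q ∣ K.relIndex E := hdvd.trans (Nat.gcd_dvd_right _ _)
      by_cases hqκ : q ∈ Cfsg.kappa M
      · apply hK.2.2 q hq hqκ
        rw [← Subgroup.relIndex_mul_relIndex K E M hKE hEM]
        exact dvd_mul_of_dvd_left hq2 _
      · exact hU.2.2 q hq (by rw [hπ']; exact hqκ) hq1
    have h3 : U.relIndex E ∣ Nat.card K := by
      have : U.relIndex E ∣ Nat.card K * K.relIndex E := by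
        rw [e2, ← e1]; exact dvd_mul_left _ _
      exact (Nat.Coprime.dvd_mul_right hcop2).mp this
    rw [← e1]
    exact Nat.mul_dvd_mul_left _ h3
  refine ⟨U, hnorm, hUhall, hUE, hKE, hinf, ?_⟩
  intro m hm
  rw [← hsup] at hm
  have h1 : m ∈ ((U ⊔ K : Subgroup G) : Set G) := hm
  rw [Subgroup.coe_mul_of_right_le_normalizer_left U K hKnU] at h1
  obtain ⟨u, hu, k, hk, rfl⟩ := h1
  exact ⟨u, hu, k, hk, rfl⟩

end Cfsg.Agent.Lib.Helper85.BG
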